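import Cfsg.Agent.SimO.Graph4

/-!
Determinants of the diagonal similarities; the field part of a graph involution of minus type.
-/

set_option autoImplicit false

namespace Cfsg.Agent.SimO

open QuadraticMap Module Cfsg.Agent.ClassO Cfsg.Agent.AutO
open Cfsg.Agent.Orth hiding two_ne_zero_of_odd map_mul

theorem split_finish {X B : Type*} [Group X] [Group B] (e : X ≃* B) {H K : Subgroup X} {H' K' : Subgroup B}
    (hH : ∀ x, x ∈ H ↔ e x ∈ H') (hK : ∀ x, x ∈ K ↔ e x ∈ K') {x : X} {y : B} (hy : y = e x) (hx : orderOf x = 2) :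
    Cfsg.splitClassCount H K x = Cfsg.splitClassCount H' K' y ∧ y * y = 1 := by
  subst hy
  refine ⟨split_transport e hH hK x, ?_⟩
  rw [← map_mul, ← pow_two, ← hx, pow_orderOf_eq_one, map_one]

section plus
variable {F : Type*} [Field F] {m : ℕ}

theorem dL_dlt (μ : Fˣ) : dL (qfPlus m F) (dlt m μ) = μ ^ m := by
  apply Units.ext
  rw [coe_dL]
  have h : (((linE (qfPlus m F) (dlt m μ) : SimE (qfPlus m F)) : (Fin m ⊕ Fin m → F) ≃ₗ[F] (Fin m ⊕ Fin m → F)) :
      (Fin m ⊕ Fin m → F) →ₗ[F] (Fin m ⊕ Fin m → F)) =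
      Matrix.toLin' (Matrix.diagonal (Sum.elim (fun _ => (μ : F)) (fun _ => 1))) := by
    refine LinearMap.ext fun v => ?_
    funext j
    rw [Matrix.toLin'_apply, Matrix.mulVec_diagonal]
    rcases j with j | j
    · exact dlt_inl μ v j
    · exact (dlt_inr μ v j).trans (one_mul _).symm
  rw [h, LinearMap.det_toLin', Matrix.det_diagonal, Fintype.prod_sum_type]
  simp

theorem det_plus [Fintype F] [hG : AutO.Good (qfPlus m F)] (hodd : Odd (Fintype.card F)) (l : LinS (qfPlus m F)) :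
    dL (qfPlus m F) l = mu (exists_q (Q := qfPlus m F)) l ^ m * sgn F (epsP m F l) := by
  obtain ⟨μ, hμ, hμ'⟩ := exists_chi (m := m) hodd
  refine det_eps isEps_plus ?_ hμ ?_ l
  · rw [Fintype.card_sum, Fintype.card_fin, two_mul]
  · rw [dL_dlt, mu_eq exists_q (semi_dlt μ), eps_dlt, map_one, mul_one]

end plus

section minus
variable {F : Type*} [Field F] {a b : F} {m : ℕ}

theorem dL_gL [Fact (∀ r : F, r ^ 2 ≠ -b + a * r)] [Finite F] (p : ℕ) [Fact p.Prime] [CharP F p] (κ : (KK a b)ˣ) :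
    dL (qfMinus m F a b) (gL p m κ) = nu κ ^ (m + 1) := by
  apply Units.ext
  rw [coe_dL]
  have h : (((linE (qfMinus m F a b) (gL p m κ) : SimE (qfMinus m F a b)) :
      ((Fin m ⊕ Fin m) ⊕ Fin 2 → F) ≃ₗ[F] ((Fin m ⊕ Fin m) ⊕ Fin 2 → F)) :
      ((Fin m ⊕ Fin m) ⊕ Fin 2 → F) →ₗ[F] ((Fin m ⊕ Fin m) ⊕ Fin 2 → F)) =
      Matrix.toLin' (Matrix.fromBlocks (Matrix.diagonal (Sum.elim (fun _ => 1) (fun _ => (nu κ : F)))) 0 0
        !![(κ : KK a b).re, -b * (κ : KK a b).im; (κ : KK a b).im, (κ : KK a b).re + a * (κ : KK a b).im]) := by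
    refine LinearMap.ext fun v => ?_
    funext j
    have hz := gL_z (m := m) p κ v
    have hre := congrArg QuadraticAlgebra.re hz
    have him := congrArg QuadraticAlgebra.im hz
    rw [QuadraticAlgebra.re_mul] at hre
    rw [QuadraticAlgebra.im_mul] at him
    rw [Matrix.toLin'_apply]
    rcases j with (j | j) | j
    · refine (gL_x p κ v j).trans ?_
      simp [Matrix.mulVec, dotProduct, Matrix.diagonal_apply, Fintype.sum_sum_type]
    · refine (gL_y p κ v j).trans ?_
      simp [Matrix.mulVec, dotProduct, Matrix.diagonal_apply, Fintype.sum_sum_type]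
    · fin_cases j
      · refine hre.trans ?_
        simp [Matrix.mulVec, dotProduct, Fintype.sum_sum_type, tob]
      · refine him.trans ?_
        simp [Matrix.mulVec, dotProduct, Fintype.sum_sum_type, tob]
        ring
  rw [h, LinearMap.det_toLin', Matrix.det_fromBlocks_zero₁₂, Matrix.det_diagonal, Fintype.prod_sum_type,
    Matrix.det_fin_two]
  simp only [Sum.elim_inl, Sum.elim_inr, Finset.prod_const, Finset.card_univ, Fintype.card_fin, one_pow, one_mul,
    Matrix.of_apply, Matrix.cons_val', Matrix.cons_val_zero, Matrix.cons_val_one, Matrix.cons_val_fin_one]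
  rw [Units.val_pow_eq_pow_val, pow_succ]
  congr 1
  rw [coe_nu, QuadraticAlgebra.norm_def]
  ring

end minus

section minus2

universe u
variable {F : Type u} [Field F] [Fintype F] {a b : F} {m : ℕ} [hab : Fact (∀ r : F, r ^ 2 ≠ -b + a * r)]
  [hG : AutO.Good (qfMinus m F a b)]

theorem det_minus (hodd : Odd (Fintype.card F)) (l : LinS (qfMinus m F a b)) :
    dL (qfMinus m F a b) l = mu (exists_q (Q := qfMinus m F a b)) l ^ (m + 1) * sgn F (epsM m F a b l) := by
  obtain ⟨p, hp⟩ := CharP.exists F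
  have hpp : Fact p.Prime := ⟨CharP.char_is_prime F p⟩
  obtain ⟨μ, hμ⟩ := exists_ns hodd
  obtain ⟨κ, hκ⟩ := exists_nu (a := a) (b := b) μ
  have hmu : mu (exists_q (Q := qfMinus m F a b)) (gL p m κ) = nu κ := mu_eq exists_q (semi_gL p κ)
  refine det_eps isEps_minus (δ := gL p m κ) ?_ ?_ ?_ l
  · rw [Fintype.card_sum, Fintype.card_sum, Fintype.card_fin, Fintype.card_fin]; ring
  · rw [chi_apply, hmu, hκ, hμ]
  · rw [dL_gL, hmu, eps_gL', map_one, mul_one]

/-- an involution outside the inner-diagonal group is induced by a similarity -/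
theorem lin_of_invol {γ : GamO (qfMinus m F a b)} (h : cO _ γ * cO (qfMinus m F a b) γ = 1) :
    (∃ l : LinS (qfMinus m F a b), γ = l) := by
  obtain ⟨p, hp⟩ := CharP.exists F
  have hpp : Fact p.Prime := ⟨CharP.char_is_prime F p⟩
  obtain ⟨n, -, hn⟩ := FiniteField.card F p
  have hF : Nat.card F = p ^ (n : ℕ) := by rw [Nat.card_eq_fintype_card, hn]
  have hn1 : 1 ≤ (n : ℕ) := n.2
  obtain ⟨κ, j, k, hγ⟩ := gam_decomp (m := m) (a := a) (b := b) (p := p) hF hn1 γ
  by_cases hj : (n : ℕ) ∣ j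
  · -- linear
    have h1 : frj F p j = 1 := (frj_eq_one_iff hF hn1 j).2 hj
    refine ⟨⟨γ, nu κ, ?_⟩, rfl⟩
    have h2 : gK p m κ 0 * gK p m 1 j = gK p m κ j := by rw [gK_mul, one_pow, mul_one, zero_add]
    have h3 := (isSemi_gK (m := m) p κ j).mul (isSemi_ofO k)
    rw [hγ, h2]
    rw [h1, mul_one, map_one, mul_one] at h3
    exact h3
  · exfalso
    rw [← map_mul] at h
    obtain ⟨t, ht⟩ := (cO_eq_one_iff (γ * γ)).1 h
    have h2 : gK p m κ 0 * gK p m 1 j = gK p m κ j := by rw [gK_mul, one_pow, mul_one, zero_add]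
    rw [hγ, h2] at ht
    set k' : OGrp (qfMinus m F a b) := conjO _ (gK p m κ j)⁻¹ k * k with hk'
    have hkp : parityHom hG.nd hG.rg k' = 1 := by
      rw [hk', map_mul, parity_conj]
      rcases Int.units_eq_one_or (parityHom hG.nd hG.rg k) with h | h <;> rw [h] <;> rfl
    have h3 : gK p m κ j * ofO _ k * (gK p m κ j * ofO _ k) = gK p m (κ * κ ^ p ^ j) (j + j) * ofO _ k' := by
      have h4 : ofO _ (conjO (qfMinus m F a b) (gK p m κ j)⁻¹ k) = (gK p m κ j)⁻¹ * ofO _ k * gK p m κ j := by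
        rw [← conj_ofO, inv_inv]
      rw [hk', map_mul, h4, ← gK_mul]
      group
    rw [h3] at ht
    -- the field part
    have h5 : frj F p (j + j) = 1 := by
      have h6 := (isSemi_gK (m := m) p (κ * κ ^ p ^ j) (j + j)).mul (isSemi_ofO k')
      have h7 : IsSemi (qfMinus m F a b) ((scl (qfMinus m F a b) t : GamO (qfMinus m F a b)) : Equiv.Perm _) 1 (t ^ 2) :=
        isSemi_scl t
      rw [← ht] at h7
      have h8 := IsSemi.uniq h6 h7 (Module.nontrivial_of_finrank_pos (R := F) (by have := hG.dim; omega))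
      rwa [mul_one] at h8
    rw [frj_eq_one_iff hF hn1] at h5
    obtain ⟨c, hc⟩ := h5
    have hcodd : Odd c := by
      by_contra hev
      obtain ⟨d, hd⟩ := Nat.not_odd_iff_even.1 hev
      apply hj
      refine ⟨d, ?_⟩
      have : 2 * j = 2 * ((n : ℕ) * d) := by rw [two_mul, hc, hd]; ring
      omega
    have h9 : gK p m (1 : (KK a b)ˣ) (j + j) = ofO _ (rK m w0_ne) ^ c := by
      rw [hc, ← gK_one_pow, pow_mul, gK_one_pow, gK_f p hF]
    have h10 : gK p m (κ * κ ^ p ^ j) (j + j) = gK p m (κ * κ ^ p ^ j) 0 * gK p m 1 (j + j) := by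
      rw [gK_mul, one_pow, mul_one, zero_add]
    rw [h10, h9] at ht
    have h11 : gL p m (κ * κ ^ p ^ j) * ofL _ (rK m w0_ne) ^ c * ofL _ k' = sclL _ t := Subtype.ext ht
    have h12 := congrArg (epsM m F a b) h11
    have hε := isEps_minus (m := m) (F := F) (a := a) (b := b)
    rw [map_mul, map_mul, map_pow, eps_gL', hε.isom, hε.isom, hε.scl, hkp, rK, parityHom_refl, hcodd.neg_one_pow] at h12
    exact absurd h12 (by decide)

end minus2

end Cfsg.Agent.SimO
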