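import Cfsg.Agent.SimO.Img

/-!
Plus type: diagonal similarity and minus one.
-/

set_option autoImplicit false

namespace Cfsg.Agent.SimO

open QuadraticMap Module Cfsg.Agent.ClassO Cfsg.Agent.AutO
open Cfsg.Agent.Orth hiding two_ne_zero_of_odd map_mul

/-- a semisimilarity as an element of `GamO` -/
def ofSS {F V : Type*} [Field F] [AddCommGroup V] [Module F V] {Q : QuadraticForm F V} (t : OAut.SemiSim Q) : GamO Q :=
  ⟨t.T.toEquiv, t.σ, Units.mk0 t.c t.hc, ⟨fun x y => map_add t.T x y, t.smul', t.q'⟩⟩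

theorem ofSS_apply {F V : Type*} [Field F] [AddCommGroup V] [Module F V] {Q : QuadraticForm F V}
    (t : OAut.SemiSim Q) (v : V) : ((ofSS t : GamO Q) : Equiv.Perm V) v = t.T v := rfl

variable {F : Type*} [Field F] {m : ℕ}

/-- the diagonal similarity `diag(μ, …, μ, 1, …, 1)` -/
noncomputable def dlt (m : ℕ) (μ : Fˣ) : LinS (qfPlus m F) := ⟨ofSS (OAut.dS (fun _ => μ) μ), μ,
  ⟨fun x y => map_add (OAut.dS (m := m) (fun _ => μ) μ).T x y, (OAut.dS (fun _ => μ) μ).smul',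
    (OAut.dS (fun _ => μ) μ).q'⟩⟩

theorem semi_dlt (μ : Fˣ) : IsSemi (qfPlus m F) ((dlt m μ : GamO (qfPlus m F)) : Equiv.Perm _) 1 μ :=
  ⟨fun x y => map_add (OAut.dS (m := m) (fun _ => μ) μ).T x y, (OAut.dS (fun _ => μ) μ).smul',
    (OAut.dS (fun _ => μ) μ).q'⟩

theorem dlt_inl (μ : Fˣ) (v : Fin m ⊕ Fin m → F) (i : Fin m) :
    ((dlt m μ : GamO (qfPlus m F)) : Equiv.Perm _) v (.inl i) = (μ : F) * v (.inl i) := rfl

theorem dlt_inr (μ : Fˣ) (v : Fin m ⊕ Fin m → F) (i : Fin m) :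
    ((dlt m μ : GamO (qfPlus m F)) : Equiv.Perm _) v (.inr i) = v (.inr i) := by
  change ((μ * μ⁻¹ : Fˣ) : F) * v (.inr i) = _
  rw [mul_inv_cancel, Units.val_one, one_mul]

theorem eps_dlt (μ : Fˣ) : epsP m F (dlt m μ) = 1 := by
  refine epsU_of_stable (qfPlus_nondegenerate m F) (finrank_V m F) (TS_U0 m F) (finrank_U0 m F) _ ?_
  rintro _ ⟨x, hx, rfl⟩
  rw [mem_U0]
  intro i
  exact (dlt_inr μ x i).trans ((mem_U0 m F).1 hx i)

theorem dlt_mul (μ : Fˣ) : dlt m μ * dlt m μ = sclL _ μ * ofL _ (OAut.hd m F fun _ => μ) := by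
  refine Subtype.ext (gam_ext fun v => ?_)
  funext j
  change ((dlt m μ : GamO (qfPlus m F)) : Equiv.Perm _) (((dlt m μ : GamO (qfPlus m F)) : Equiv.Perm _) v) j =
    (μ : F) * (OAut.dS (fun _ => μ) 1).T v j
  rcases j with j | j
  · rw [dlt_inl, dlt_inl]; rfl
  · rw [dlt_inr, dlt_inr]
    change _ = (μ : F) * (((1 * μ⁻¹ : Fˣ) : F) * v (.inr j))
    rw [← mul_assoc, ← Units.val_mul, one_mul, mul_inv_cancel, Units.val_one, one_mul]

section fin
variable [Fintype F] [hG : AutO.Good (qfPlus m F)]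

theorem sqc_pow {μ : F} (hμ : μ ≠ 0) (n : ℕ) : sqc (μ ^ n) = sqc μ ^ n := by
  induction n with
  | zero => rw [pow_zero, pow_zero, sqc, if_pos IsSquare.one]
  | succ n ih => rw [pow_succ, pow_succ, sqc_mul (pow_ne_zero n hμ) hμ, ih]

theorem spin_hd_const (μ : Fˣ) : spinHom hG.nd hG.rg (OAut.hd m F fun _ => μ) = sqc (μ : F) ^ m := by
  rw [OAut.spin_hd, Finset.prod_const, Finset.card_univ, Fintype.card_fin, Units.val_pow_eq_pow_val,
    sqc_pow μ.ne_zero]

theorem chi_dlt (μ : Fˣ) : chi (exists_q (Q := qfPlus m F)) (dlt m μ) = sqc (μ : F) := by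
  rw [chi_apply, mu_eq exists_q (semi_dlt μ)]

theorem negO_plus : negO (qfPlus m F) = OAut.hd m F fun _ => -1 := by
  refine OGrp_ext fun v => ?_
  rw [OAut.hd_const (-1) (by rw [neg_mul_neg, one_mul]), Units.val_neg, Units.val_one, neg_smul, one_smul]; rfl

theorem parity_negO : parityHom hG.nd hG.rg (negO (qfPlus m F)) = 1 := by
  rw [negO_plus, OAut.parity_hd]

theorem spin_negO : spinHom hG.nd hG.rg (negO (qfPlus m F)) = sqc (-1 : F) ^ m := by
  rw [negO_plus, spin_hd_const, Units.val_neg, Units.val_one]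

theorem spin_negO_iff (hodd : Odd (Fintype.card F)) :
    spinHom hG.nd hG.rg (negO (qfPlus m F)) = 1 ↔ ¬ (Odd m ∧ Fintype.card F % 4 = 3) := by
  rw [spin_negO]
  have hsq : IsSquare (-1 : F) ↔ Fintype.card F % 4 ≠ 3 := FiniteField.isSquare_neg_one_iff
  by_cases h : Fintype.card F % 4 = 3
  · have h1 : ¬ IsSquare (-1 : F) := fun h' => hsq.1 h' h
    rw [sqc, if_neg h1]
    rcases Nat.even_or_odd m with h2 | h2
    · rw [h2.neg_one_pow]
      exact iff_of_true rfl fun h3 => Nat.not_even_iff_odd.2 h3.1 h2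
    · rw [h2.neg_one_pow]
      exact iff_of_false (by decide) fun h3 => h3 ⟨h2, h⟩
  · have h1 : IsSquare (-1 : F) := hsq.2 h
    rw [sqc, if_pos h1, one_pow]
    exact iff_of_true rfl fun h3 => h h3.2

theorem exists_chi (hodd : Odd (Fintype.card F)) : ∃ μ : Fˣ, chi (exists_q (Q := qfPlus m F)) (dlt m μ) = -1 ∧ sqc (μ : F) = -1 := by
  obtain ⟨μ, hμ⟩ := exists_ns hodd
  exact ⟨μ, (chi_dlt μ).trans hμ, hμ⟩

end fin

end Cfsg.Agent.SimO
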