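import Cfsg.Agent.SimO.Base
import Cfsg.Agent.SimO.Plus
import Cfsg.Agent.AutO.OutMinus2

/-!
The inner-diagonal group of the minus type groups.
-/

set_option autoImplicit false

namespace Cfsg.Agent.SimO

open QuadraticMap Module Cfsg.Agent.ClassO Cfsg.Agent.AutO
open Cfsg.Agent.Orth hiding two_ne_zero_of_odd map_mul

section minus

variable {F : Type*} {K : Type*} [Field F] [Field K] [Algebra F K] {a b : F} {m : ℕ}

section facts
variable (hab : ∀ z₁ z₂ : F, z₁ ^ 2 + a * z₁ * z₂ + b * z₂ ^ 2 = 0 → z₁ = 0 ∧ z₂ = 0) {α : K}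
    (hα : α ^ 2 - algebraMap F K a * α + algebraMap F K b = 0)

theorem psc_minus [Finite F] (l : LinS (qfMinus m F a b))
    (g : Matrix ((Fin m ⊕ Fin m) ⊕ Fin 2) ((Fin m ⊕ Fin m) ⊕ Fin 2) F)
    (hl : ∀ v, ((linE (qfMinus m F a b) l : SimE (qfMinus m F a b)) :
      ((Fin m ⊕ Fin m) ⊕ Fin 2 → F) ≃ₗ[F] ((Fin m ⊕ Fin m) ⊕ Fin 2 → F)) v = g.mulVec v) :
    Cfsg.PreservesSingularClasses (⇑(qfMK m K a b)) (g.map (algebraMap F K)) ↔ epsK m hab hα l = 1 := by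
  rw [epsK_eq_one_iff]
  obtain ⟨c, hc⟩ := (linE (qfMinus m F a b) l).2
  exact psc_iff (Q := qfMK m K a b) (qfMK_nondeg hab) finrank_VK (TS_ann hα) (finrank_ann α) (bc_lin l g hl)
    (sim_bc (qfMK_eK (m := m) (K := K) (a := a) (b := b)) hc)

/-! ### the element `g_κ` -/

section gL
variable [Fact (∀ r : F, r ^ 2 ≠ -b + a * r)] [Finite F] (p : ℕ) [Fact p.Prime] [CharP F p]

theorem semi_gL (κ : (KK a b)ˣ) : IsSemi (qfMinus m F a b) ((gK p m κ 0 : GamO (qfMinus m F a b)) : Equiv.Perm _) 1 (nu κ) := by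
  have h := isSemi_gK (m := m) p κ 0
  have h1 : frj F p 0 = 1 := RingEquiv.ext fun x => by
    rw [frj_apply, pow_zero, pow_one]; rfl
  rwa [h1] at h

/-- `g_κ` as a linear similarity -/
noncomputable def gL (m : ℕ) (κ : (KK a b)ˣ) : LinS (qfMinus m F a b) := ⟨gK p m κ 0, nu κ, semi_gL p κ⟩

theorem gL_x (κ : (KK a b)ˣ) (v : (Fin m ⊕ Fin m) ⊕ Fin 2 → F) (i : Fin m) :
    ((gL p m κ : GamO (qfMinus m F a b)) : Equiv.Perm _) v (.inl (.inl i)) = v (.inl (.inl i)) := by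
  change v _ ^ p ^ 0 = _
  rw [pow_zero, pow_one]

theorem gL_y (κ : (KK a b)ˣ) (v : (Fin m ⊕ Fin m) ⊕ Fin 2 → F) (i : Fin m) :
    ((gL p m κ : GamO (qfMinus m F a b)) : Equiv.Perm _) v (.inl (.inr i)) = (nu κ : F) * v (.inl (.inr i)) := by
  change (nu κ : F) * v _ ^ p ^ 0 = _
  rw [pow_zero, pow_one]

theorem gL_z (κ : (KK a b)ˣ) (v : (Fin m ⊕ Fin m) ⊕ Fin 2 → F) :
    tob a b (((gL p m κ : GamO (qfMinus m F a b)) : Equiv.Perm _) v) = (κ : KK a b) * tob a b v := by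
  change (κ : KK a b) * tob a b v ^ p ^ 0 = _
  rw [pow_zero, pow_one]

include hα in
omit [Fact (∀ r : F, r ^ 2 ≠ -b + a * r)] [Finite F] in
theorem lam_mul (κ z : KK a b) :
    algebraMap F K (κ * z).re + α * algebraMap F K (κ * z).im =
      (algebraMap F K κ.re + α * algebraMap F K κ.im) * (algebraMap F K z.re + α * algebraMap F K z.im) := by
  rw [QuadraticAlgebra.re_mul, QuadraticAlgebra.im_mul]
  simp only [map_add, map_mul, map_neg]
  linear_combination (-(algebraMap F K κ.im) * (algebraMap F K z.im)) * hα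

theorem eps_gL (κ : (KK a b)ˣ) : epsK m hab hα (gL p m κ) = 1 := by
  refine epsU_of_stable (Q := qfMK m K a b) (qfMK_nondeg hab) finrank_VK (TS_ann hα) (finrank_ann α) _ ?_
  set f : ((Fin m ⊕ Fin m) ⊕ Fin 2 → F) ≃ₗ[F] ((Fin m ⊕ Fin m) ⊕ Fin 2 → F) :=
    ((linE (qfMinus m F a b) (gL p m κ) : SimE (qfMinus m F a b)) :
      ((Fin m ⊕ Fin m) ⊕ Fin 2 → F) ≃ₗ[F] ((Fin m ⊕ Fin m) ⊕ Fin 2 → F)) with hf
  have h1 : ∀ i : Fin m, (LinearMap.proj (R := K) (φ := fun _ : (Fin m ⊕ Fin m) ⊕ Fin 2 => K) (.inl (.inr i))).comp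
      ((bcE F K ((Fin m ⊕ Fin m) ⊕ Fin 2) f : ((Fin m ⊕ Fin m) ⊕ Fin 2 → K) ≃ₗ[K] ((Fin m ⊕ Fin m) ⊕ Fin 2 → K)) :
      ((Fin m ⊕ Fin m) ⊕ Fin 2 → K) →ₗ[K] ((Fin m ⊕ Fin m) ⊕ Fin 2 → K)) =
      (algebraMap F K (nu κ)) • LinearMap.proj (.inl (.inr i)) := by
    intro i
    refine lin_ext (F := F) fun v => ?_
    change bcE F K ((Fin m ⊕ Fin m) ⊕ Fin 2) f (eK K v) (.inl (.inr i)) = algebraMap F K (nu κ) * eK K v (.inl (.inr i))
    rw [bcE_eK, eK_apply, eK_apply, ← map_mul]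
    exact congrArg (algebraMap F K) (gL_y p κ v i)
  have h2 : (lam K m α).comp
      ((bcE F K ((Fin m ⊕ Fin m) ⊕ Fin 2) f : ((Fin m ⊕ Fin m) ⊕ Fin 2 → K) ≃ₗ[K] ((Fin m ⊕ Fin m) ⊕ Fin 2 → K)) :
      ((Fin m ⊕ Fin m) ⊕ Fin 2 → K) →ₗ[K] ((Fin m ⊕ Fin m) ⊕ Fin 2 → K)) =
      (algebraMap F K (κ : KK a b).re + α * algebraMap F K (κ : KK a b).im) • lam K m α := by
    refine lin_ext (F := F) fun v => ?_
    change lam K m α (bcE F K ((Fin m ⊕ Fin m) ⊕ Fin 2) f (eK K v)) = _ * lam K m α (eK K v)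
    rw [bcE_eK, lam_apply, lam_apply]
    have h3 := lam_mul hα (κ : KK a b) (tob a b v)
    rw [← gL_z p κ v] at h3
    exact h3
  rintro _ ⟨x, hx, rfl⟩
  rw [SetLike.mem_coe, mem_ann] at hx
  rw [mem_ann]
  constructor
  · intro i
    have h3 := DFunLike.congr_fun (h1 i) x
    refine h3.trans ?_
    change algebraMap F K (nu κ) * x (.inl (.inr i)) = 0
    rw [hx.1, mul_zero]
  · have h3 := DFunLike.congr_fun h2 x
    refine h3.trans ?_
    change _ * lam K m α x = 0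
    rw [hx.2, mul_zero]

theorem eps_decomp (l : LinS (qfMinus m F a b)) :
    ∃ (κ : (KK a b)ˣ) (k : OGrp (qfMinus m F a b)), l = gL p m κ * ofL _ k := by
  obtain ⟨c, hc⟩ := l.2
  obtain ⟨κ, hκ⟩ := exists_nu (a := a) (b := b) c
  have h1 : IsSemi (qfMinus m F a b) ((((gL p m κ)⁻¹ * l : LinS (qfMinus m F a b)) : GamO (qfMinus m F a b)) : Equiv.Perm _) 1 1 := by
    have h2 := IsSemi1.mul (IsSemi1.inv (semi_gL (m := m) p κ)) hc
    rwa [hκ, inv_mul_cancel] at h2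
  obtain ⟨k, hk⟩ := exists_ofO h1
  refine ⟨κ, k, ?_⟩
  have : (gL p m κ)⁻¹ * l = ofL _ k := Subtype.ext hk
  rw [← this, mul_inv_cancel_left]

end gL

end facts

/-- independence of the extension -/
theorem epsK_indep [Fintype F] [hG : AutO.Good (qfMinus m F a b)] {K' : Type*} [Field K'] [Algebra F K']
    (hab : ∀ z₁ z₂ : F, z₁ ^ 2 + a * z₁ * z₂ + b * z₂ ^ 2 = 0 → z₁ = 0 ∧ z₂ = 0) {α : K}
    (hα : α ^ 2 - algebraMap F K a * α + algebraMap F K b = 0) {α' : K'}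
    (hα' : α' ^ 2 - algebraMap F K' a * α' + algebraMap F K' b = 0) : epsK m hab hα = epsK m hab hα' := by
  have : Fact (∀ r : F, r ^ 2 ≠ -b + a * r) := fact_of_aniso hab
  obtain ⟨p, hp⟩ := CharP.exists F
  have hpp : Fact p.Prime := ⟨CharP.char_is_prime F p⟩
  ext l
  obtain ⟨κ, k, rfl⟩ := eps_decomp p l
  rw [map_mul, map_mul, eps_gL, eps_gL, (isEps_K hab hα).isom, (isEps_K hab hα').isom]

/-- the root of the polynomial in the quadratic algebra -/
theorem omega_root : ((⟨0, 1⟩ : KK a b)) ^ 2 - algebraMap F (KK a b) a * ⟨0, 1⟩ + algebraMap F (KK a b) b = 0 := by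
  rw [pow_two]
  apply QuadraticAlgebra.ext
  · simp
  · simp

/-- the root in any quadratic extension -/
theorem exists_root [Finite F] [Fact (∀ r : F, r ^ 2 ≠ -b + a * r)] (hK : Module.finrank F K = 2) :
    ∃ α : K, α ^ 2 - algebraMap F K a * α + algebraMap F K b = 0 := by
  have : Module.Finite F K := Module.finite_of_finrank_pos (by omega)
  have : Finite K := Module.finite_of_finite F
  obtain ⟨φ⟩ := FiniteField.nonempty_algHom_of_finrank_dvd (F := F) (K := KK a b) (L := K) (by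
    rw [QuadraticAlgebra.finrank_eq_two, hK])
  refine ⟨φ ⟨0, 1⟩, ?_⟩
  have h := congrArg φ (omega_root (a := a) (b := b))
  rw [map_add, map_sub, map_mul, map_pow, AlgHom.commutes, AlgHom.commutes, map_zero] at h
  exact h

end minus

section minus2

universe u
variable {F : Type u} [Field F] [Fintype F] {a b : F} {m : ℕ} [hab : Fact (∀ r : F, r ^ 2 ≠ -b + a * r)]

/-- the parity character for the minus type form -/
noncomputable def epsM (m : ℕ) (F : Type u) [Field F] [Fintype F] (a b : F) [hab : Fact (∀ r : F, r ^ 2 ≠ -b + a * r)] :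
    LinS (qfMinus m F a b) →* ℤˣ := epsK m aniso_of_fact (omega_root (a := a) (b := b))

theorem isEps_minus [hG : AutO.Good (qfMinus m F a b)] : IsEps (epsM m F a b) := isEps_K _ _

theorem psc_minus' [hG : AutO.Good (qfMinus m F a b)] (l : LinS (qfMinus m F a b))
    (g : GL ((Fin m ⊕ Fin m) ⊕ Fin 2) F)
    (hl : ∀ v, ((l : GamO (qfMinus m F a b)) : Equiv.Perm ((Fin m ⊕ Fin m) ⊕ Fin 2 → F)) v =
      (g : Matrix ((Fin m ⊕ Fin m) ⊕ Fin 2) ((Fin m ⊕ Fin m) ⊕ Fin 2) F).mulVec v) :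
    Cfsg.PreservesSingularClassesMinus m a b (g : Matrix ((Fin m ⊕ Fin m) ⊕ Fin 2) ((Fin m ⊕ Fin m) ⊕ Fin 2) F) ↔
      epsM m F a b l = 1 := by
  constructor
  · rintro ⟨K, hK1, hK2, hK, h⟩
    obtain ⟨α, hα⟩ := exists_root (K := K) (a := a) (b := b) hK
    have h1 := (psc_minus aniso_of_fact hα l _ hl).1 h
    rw [epsM, epsK_indep aniso_of_fact (omega_root (a := a) (b := b)) hα]
    exact h1
  · intro h
    exact ⟨KK a b, inferInstance, inferInstance, QuadraticAlgebra.finrank_eq_two _ _,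
      (psc_minus aniso_of_fact (omega_root (a := a) (b := b)) l _ hl).2 h⟩

theorem mem_inndiag_minus [hG : AutO.Good (qfMinus m F a b)] (β : MulAut (Cfsg.POmega F ⇑(qfMinus m F a b))) :
    β ∈ Cfsg.inndiagPOmegaMinus m F a b ↔
      MulAut.congr (pomE (qfMinus m F a b)) β ∈ (epsM m F a b).ker.map (cL (qfMinus m F a b)) := by
  refine mem_autSub (MulAut.congr (pomE (qfMinus m F a b))) _ (fun β => ?_) β
  exact induced_P (Q := qfMinus m F a b) psc_minus' β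

theorem negO_eq : negO (qfMinus m F a b) = nO (qfMinus m F a b) := OGrp_ext fun v => rfl

theorem eps_gL' (p : ℕ) [Fact p.Prime] [CharP F p] (κ : (KK a b)ˣ) : epsM m F a b (gL p m κ) = 1 :=
  eps_gL _ _ p κ

section good
variable [hG : AutO.Good (qfMinus m F a b)]

theorem parity_negM : parityHom hG.nd hG.rg (negO (qfMinus m F a b)) = 1 := by
  rw [negO_eq]; exact (nO_minus hG.nd hG.rg).1

theorem spin_negM_iff (hodd : Odd (Fintype.card F)) :
    spinHom hG.nd hG.rg (negO (qfMinus m F a b)) = 1 ↔ (Even m ∧ Fintype.card F % 4 = 3) := by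
  have h2 := ClassO.two_ne_zero_of_odd hodd
  have hdisc : sqc (4 * b - a ^ 2) = - sqc (-1 : F) := by
    have h3 : (4 * b - a ^ 2 : F) = (-1) * (a ^ 2 - 4 * b) := by ring
    have h4 := disc_nonsquare (a := a) (b := b) h2
    have h5 : (a ^ 2 - 4 * b : F) ≠ 0 := by
      intro h; rw [h] at h4; exact h4 IsSquare.zero
    rw [h3, sqc_mul (neg_ne_zero.2 one_ne_zero) h5, show sqc (a ^ 2 - 4 * b : F) = -1 from if_neg h4, mul_neg, mul_one]
  rw [negO_eq, (nO_minus hG.nd hG.rg).2, hdisc]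
  have hsq : IsSquare (-1 : F) ↔ Fintype.card F % 4 ≠ 3 := FiniteField.isSquare_neg_one_iff
  by_cases h : Fintype.card F % 4 = 3
  · have h1 : ¬ IsSquare (-1 : F) := fun h' => hsq.1 h' h
    rw [sqc, if_neg h1]
    rcases Nat.even_or_odd m with h3 | h3
    · rw [h3.neg_one_pow]
      exact iff_of_true rfl ⟨h3, h⟩
    · rw [h3.neg_one_pow]
      exact iff_of_false (by decide) fun h4 => Nat.not_even_iff_odd.2 h3 h4.1
  · have h1 : IsSquare (-1 : F) := hsq.2 h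
    rw [sqc, if_pos h1, one_pow]
    exact iff_of_false (by decide) fun h3 => h h3.2

theorem exists_chiM (hodd : Odd (Fintype.card F)) : ∃ (δ : LinS (qfMinus m F a b)) (c : Fˣ) (A : OGrp (qfMinus m F a b)),
    chi (exists_q (Q := qfMinus m F a b)) δ = -1 ∧ epsM m F a b δ = 1 ∧ δ * δ = sclL _ c * ofL _ A ∧
      spinHom hG.nd hG.rg A = (-1) ^ (m + 1) := by
  obtain ⟨p, hp⟩ := CharP.exists F
  have hpp : Fact p.Prime := ⟨CharP.char_is_prime F p⟩
  obtain ⟨μ, hμ⟩ := exists_ns hodd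
  obtain ⟨κ, hκ⟩ := exists_nu (a := a) (b := b) μ
  obtain ⟨A, hA1, hA2, hA3⟩ := exists_A (m := m) p hG.nd hG.rg κ
  refine ⟨gL p m κ, nu κ, A, ?_, eps_gL' p κ, Subtype.ext ?_, ?_⟩
  · rw [chi_apply, mu_eq exists_q (semi_gL p κ), hκ, hμ]
  · change gK p m κ 0 * gK p m κ 0 = scl _ (nu κ) * ofO _ A
    rw [← hA1, gK_mul, pow_zero, pow_one, add_zero, pow_two]
  · rw [hA3, hκ, hμ]

end good

end minus2

end Cfsg.Agent.SimO
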