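import Cfsg.Agent.SimO.Img
import Cfsg.Agent.AutO.OutMinus

/-!
Base change of similarities; parity character for the minus type form.
-/

set_option autoImplicit false

namespace Cfsg.Agent.SimO

open QuadraticMap Module Cfsg.Agent.ClassO Cfsg.Agent.AutO
open Cfsg.Agent.Orth hiding two_ne_zero_of_odd map_mul

section base
variable {F : Type*} (K : Type*) [Field F] [Field K] [Algebra F K] {ι : Type} [Fintype ι] [DecidableEq ι]

/-- extension of coordinates -/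
def eK (v : ι → F) : ι → K := fun i => algebraMap F K (v i)

variable {K}

theorem eK_apply (v : ι → F) (i : ι) : eK K v i = algebraMap F K (v i) := rfl

theorem eK_add (u v : ι → F) : eK K (u + v) = eK K u + eK K v := funext fun _ => map_add _ _ _

theorem eK_sub (u v : ι → F) : eK K (u - v) = eK K u - eK K v := funext fun _ => map_sub _ _ _

theorem eK_smul (c : F) (v : ι → F) : eK K (c • v) = algebraMap F K c • eK K v := funext fun _ => map_mul _ _ _

theorem eK_single (i : ι) : eK K (Pi.single i (1 : F)) = Pi.single i 1 := by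
  funext j
  rw [eK_apply, Pi.single_apply, Pi.single_apply]
  by_cases h : j = i
  · rw [if_pos h, if_pos h, map_one]
  · rw [if_neg h, if_neg h, map_zero]

theorem eK_mulVec (g : Matrix ι ι F) (v : ι → F) :
    (g.map (algebraMap F K)).mulVec (eK K v) = eK K (g.mulVec v) := by
  funext i
  simp only [Matrix.mulVec, dotProduct, eK_apply, Matrix.map_apply, map_sum, map_mul]

theorem lin_ext {W : Type*} [AddCommGroup W] [Module K W] {f g : (ι → K) →ₗ[K] W}
    (h : ∀ v : ι → F, f (eK K v) = g (eK K v)) : f = g := by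
  refine (Pi.basisFun K ι).ext fun i => ?_
  rw [Pi.basisFun_apply, ← eK_single (F := F)]
  exact h _

theorem qf_ext_eK {Q₁ Q₂ : QuadraticForm K (ι → K)} (h : ∀ v : ι → F, Q₁ (eK K v) = Q₂ (eK K v)) : Q₁ = Q₂ := by
  refine qf_ext_basis (Pi.basisFun K ι) (fun i => ?_) (fun i j => ?_)
  · rw [Pi.basisFun_apply, ← eK_single (F := F) (K := K)]
    exact h _
  · rw [Pi.basisFun_apply, Pi.basisFun_apply, ← eK_single (F := F) (K := K) i, ← eK_single (F := F) (K := K) j, QuadraticMap.polar,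
      QuadraticMap.polar, ← eK_add, h, h, h]

variable (F K ι) in
/-- base change of linear equivalences -/
noncomputable def bcE : ((ι → F) ≃ₗ[F] (ι → F)) →* ((ι → K) ≃ₗ[K] (ι → K)) :=
  (glE ι K).toMonoidHom.comp ((Matrix.GeneralLinearGroup.map (algebraMap F K)).comp (glE ι F).symm.toMonoidHom)

theorem bcE_eK (f : (ι → F) ≃ₗ[F] (ι → F)) (v : ι → F) : bcE F K ι f (eK K v) = eK K (f v) := by
  change (glE ι K (Matrix.GeneralLinearGroup.map (algebraMap F K) ((glE ι F).symm f))) (eK K v) = _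
  rw [glE_apply]
  change ((((glE ι F).symm f : Matrix.GeneralLinearGroup ι F) : Matrix ι ι F).map (algebraMap F K)).mulVec (eK K v) = _
  rw [eK_mulVec, ← glE_apply, MulEquiv.apply_symm_apply]

theorem bcE_mulVec (f : (ι → F) ≃ₗ[F] (ι → F)) (g : Matrix ι ι F) (h : ∀ v, f v = g.mulVec v) (w : ι → K) :
    bcE F K ι f w = (g.map (algebraMap F K)).mulVec w := by
  have h1 : ((bcE F K ι f : (ι → K) ≃ₗ[K] (ι → K)) : (ι → K) →ₗ[K] (ι → K)) =
      Matrix.mulVecLin (g.map (algebraMap F K)) := by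
    refine lin_ext (F := F) fun v => ?_
    rw [Matrix.mulVecLin_apply, eK_mulVec, ← h]
    exact bcE_eK f v
  exact DFunLike.congr_fun h1 w

section forms
variable {Q : QuadraticForm F (ι → F)} {QK : QuadraticForm K (ι → K)}
  (hQ : ∀ v, QK (eK K v) = algebraMap F K (Q v))

include hQ

theorem polar_eK (u v : ι → F) : polar QK (eK K u) (eK K v) = algebraMap F K (polar Q u v) := by
  rw [QuadraticMap.polar, QuadraticMap.polar, ← eK_add, hQ, hQ, hQ, map_sub, map_sub]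

theorem sim_bc {f : (ι → F) ≃ₗ[F] (ι → F)} {c : F} (hf : IsSim Q f c) :
    IsSim QK (bcE F K ι f) (algebraMap F K c) := by
  have h : QK.comp ((bcE F K ι f : (ι → K) ≃ₗ[K] (ι → K)) : (ι → K) →ₗ[K] (ι → K)) = (algebraMap F K c) • QK := by
    refine qf_ext_eK (F := F) fun v => ?_
    change QK (bcE F K ι f (eK K v)) = algebraMap F K c * QK (eK K v)
    rw [bcE_eK, hQ, hQ, hf, map_mul]
  intro w
  exact congrArg (fun q : QuadraticForm K (ι → K) => q w) h

theorem bcE_refl {v : ι → F} (hv : Q v ≠ 0) (hv' : QK (eK K v) ≠ 0) :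
    bcE F K ι (refl Q v hv : (ι → F) ≃ₗ[F] (ι → F)) = (refl QK (eK K v) hv' : (ι → K) ≃ₗ[K] (ι → K)) := by
  have h : ((bcE F K ι (refl Q v hv : (ι → F) ≃ₗ[F] (ι → F)) : (ι → K) ≃ₗ[K] (ι → K)) : (ι → K) →ₗ[K] (ι → K)) =
      ((refl QK (eK K v) hv' : (ι → K) ≃ₗ[K] (ι → K)) : (ι → K) →ₗ[K] (ι → K)) := by
    refine lin_ext (F := F) fun w => ?_
    change bcE F K ι (refl Q v hv : (ι → F) ≃ₗ[F] (ι → F)) (eK K w) =
      (refl QK (eK K v) hv' : (ι → K) ≃ₗ[K] (ι → K)) (eK K w)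
    rw [bcE_eK, refl_apply, refl_apply, eK_sub, eK_smul, polar_eK hQ, hQ, map_mul, map_inv₀]
  exact LinearEquiv.toLinearMap_injective h

theorem qK_ne {v : ι → F} (hv : Q v ≠ 0) : QK (eK K v) ≠ 0 := by
  rw [hQ]
  exact fun h => hv ((map_eq_zero _).1 h)

theorem bcE_reflProd (l : List {v : ι → F // Q v ≠ 0}) :
    bcE F K ι (reflProd Q l : (ι → F) ≃ₗ[F] (ι → F)) =
      (reflProd QK (l.map fun v => ⟨eK K v.1, qK_ne hQ v.2⟩) : (ι → K) ≃ₗ[K] (ι → K)) := by
  induction l with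
  | nil => rw [List.map_nil, reflProd_nil, reflProd_nil]; exact map_one _
  | cons v l ih =>
    have h1 : (reflProd Q (v :: l) : (ι → F) ≃ₗ[F] (ι → F)) =
      (refl Q v.1 v.2 : (ι → F) ≃ₗ[F] (ι → F)) * (reflProd Q l : (ι → F) ≃ₗ[F] (ι → F)) := rfl
    have h2 : (reflProd QK ((v :: l).map fun v => ⟨eK K v.1, qK_ne hQ v.2⟩) : (ι → K) ≃ₗ[K] (ι → K)) =
      (refl QK (eK K v.1) (qK_ne hQ v.2) : (ι → K) ≃ₗ[K] (ι → K)) *
        (reflProd QK (l.map fun v => ⟨eK K v.1, qK_ne hQ v.2⟩) : (ι → K) ≃ₗ[K] (ι → K)) := rfl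
    rw [h1, h2, map_mul, ih, bcE_refl hQ v.2 (qK_ne hQ v.2)]

/-- base change of similarities -/
noncomputable def bcS : SimE Q →* SimE QK where
  toFun f := ⟨bcE F K ι f, by
    obtain ⟨c, hc⟩ := f.2
    refine ⟨Units.map (algebraMap F K : F →* K) c, fun v => ?_⟩
    exact sim_bc hQ hc v⟩
  map_one' := Subtype.ext (map_one _)
  map_mul' f g := Subtype.ext (map_mul _ _ _)

theorem coe_bcS (f : SimE Q) : ((bcS hQ f : SimE QK) : (ι → K) ≃ₗ[K] (ι → K)) = bcE F K ι f := rfl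

end forms

end base

section minus

variable {F : Type*} {K : Type*} [Field F] [Field K] [Algebra F K] {a b : F} {m : ℕ}

/-- the minus form over an extension field -/
noncomputable abbrev qfMK (m : ℕ) (K : Type*) {F : Type*} [Field F] [Field K] [Algebra F K] (a b : F) :
    QuadraticForm K ((Fin m ⊕ Fin m) ⊕ Fin 2 → K) := qfMinus m K (algebraMap F K a) (algebraMap F K b)

theorem qfMK_eK (v : (Fin m ⊕ Fin m) ⊕ Fin 2 → F) : qfMK m K a b (eK K v) = algebraMap F K (qfMinus m F a b v) := by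
  rw [qfMinus_apply, qfMinus_apply]
  simp only [eK_apply, map_add, map_sum, map_mul, map_pow]

theorem qfMK_nondeg [Finite F] (hab : ∀ z₁ z₂ : F, z₁ ^ 2 + a * z₁ * z₂ + b * z₂ ^ 2 = 0 → z₁ = 0 ∧ z₂ = 0) :
    (polarBilin (qfMK m K a b)).Nondegenerate := by
  refine qfMinus_nondegenerate m K ?_
  have h := disc_ne_zero_of_aniso hab
  intro h1
  apply h
  apply (algebraMap F K).injective
  rw [map_zero, map_sub, map_mul, map_pow, map_ofNat]
  exact h1

/-- functional defining one of the two isotropic lines -/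
def lam (K : Type*) [Field K] (m : ℕ) (α : K) : ((Fin m ⊕ Fin m) ⊕ Fin 2 → K) →ₗ[K] K :=
  LinearMap.proj (.inr 0) + α • LinearMap.proj (.inr 1)

theorem lam_apply (α : K) (w : (Fin m ⊕ Fin m) ⊕ Fin 2 → K) : lam K m α w = w (.inr 0) + α * w (.inr 1) := rfl

/-- coordinates to be annihilated -/
def ann (K : Type*) [Field K] (m : ℕ) (α : K) : ((Fin m ⊕ Fin m) ⊕ Fin 2 → K) →ₗ[K] (Fin m → K) × K :=
  LinearMap.prod (LinearMap.pi fun i => LinearMap.proj (.inl (.inr i))) (lam K m α)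

theorem ann_apply (α : K) (w : (Fin m ⊕ Fin m) ⊕ Fin 2 → K) :
    ann K m α w = (fun i => w (.inl (.inr i)), lam K m α w) := rfl

theorem ann_surjective (α : K) : Function.Surjective (ann K m α) := by
  rintro ⟨y, z⟩
  refine ⟨Sum.elim (Sum.elim 0 y) ![z, 0], ?_⟩
  rw [ann_apply, lam_apply]
  refine Prod.ext rfl ?_
  simp

theorem finrank_ann (α : K) : finrank K (LinearMap.ker (ann K m α)) = m + 1 := by
  have h := LinearMap.finrank_range_add_finrank_ker (ann K m α)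
  rw [LinearMap.range_eq_top.2 (ann_surjective α), finrank_top, finrank_fintype_fun_eq_card, Module.finrank_prod,
    finrank_fintype_fun_eq_card, Module.finrank_self] at h
  simp at h
  omega

theorem finrank_VK : finrank K ((Fin m ⊕ Fin m) ⊕ Fin 2 → K) = 2 * (m + 1) := by
  rw [finrank_fintype_fun_eq_card]; simp; omega

theorem mem_ann {α : K} {w : (Fin m ⊕ Fin m) ⊕ Fin 2 → K} :
    w ∈ LinearMap.ker (ann K m α) ↔ (∀ i, w (.inl (.inr i)) = 0) ∧ lam K m α w = 0 := by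
  rw [LinearMap.mem_ker, ann_apply, Prod.mk_eq_zero, funext_iff]; rfl

theorem TS_ann {α : K} (hα : α ^ 2 - algebraMap F K a * α + algebraMap F K b = 0) :
    TS (qfMK m K a b) (LinearMap.ker (ann K m α)) := by
  intro w hw
  rw [mem_ann, lam_apply] at hw
  obtain ⟨h1, h2⟩ := hw
  rw [qfMinus_apply, Finset.sum_eq_zero fun i _ => by rw [h1, mul_zero], zero_add]
  have h3 : w (.inr 0) = -(α * w (.inr 1)) := by linear_combination h2
  rw [h3]
  linear_combination (w (.inr 1)) ^ 2 * hα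

/-- the parity character over an extension -/
noncomputable def epsK [Finite F] (m : ℕ) (hab : ∀ z₁ z₂ : F, z₁ ^ 2 + a * z₁ * z₂ + b * z₂ ^ 2 = 0 → z₁ = 0 ∧ z₂ = 0) {α : K}
    (hα : α ^ 2 - algebraMap F K a * α + algebraMap F K b = 0) : LinS (qfMinus m F a b) →* ℤˣ :=
  (epsU (Q := qfMK m K a b) (qfMK_nondeg hab) finrank_VK (TS_ann hα) (finrank_ann α)).comp
    ((bcS (qfMK_eK (m := m) (K := K) (a := a) (b := b))).comp (linE (qfMinus m F a b)))

section facts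
variable (hab : ∀ z₁ z₂ : F, z₁ ^ 2 + a * z₁ * z₂ + b * z₂ ^ 2 = 0 → z₁ = 0 ∧ z₂ = 0) {α : K}
    (hα : α ^ 2 - algebraMap F K a * α + algebraMap F K b = 0)

theorem isEps_K [Fintype F] [hG : AutO.Good (qfMinus m F a b)] : IsEps (epsK m hab hα) where
  isom g := by
    obtain ⟨l, rfl⟩ : ∃ l, g = reflProd (qfMinus m F a b) l := ⟨_, (exists_reflProd hG.rg g).choose_spec.symm⟩
    rw [parityHom_reflProd]
    have h := epsU_reflProd (Q := qfMK m K a b) (qfMK_nondeg hab) finrank_VK (TS_ann hα) (finrank_ann α)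
      (l.map fun v => ⟨eK K v.1, qK_ne (qfMK_eK (m := m) (K := K) (a := a) (b := b)) v.2⟩)
      (bcS (qfMK_eK (m := m) (K := K) (a := a) (b := b)) (linE (qfMinus m F a b) (ofL _ (reflProd (qfMinus m F a b) l))))
      (fun v => by
        rw [coe_bcS, ← bcE_reflProd (qfMK_eK (m := m) (K := K) (a := a) (b := b))]; rfl)
    rw [List.length_map] at h
    exact h
  scl c := by
    refine epsU_of_stable (Q := qfMK m K a b) (qfMK_nondeg hab) finrank_VK (TS_ann hα) (finrank_ann α) _ ?_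
    rintro _ ⟨x, hx, rfl⟩
    have h : ((bcE F K _ ((linE (qfMinus m F a b) (sclL _ c) : SimE (qfMinus m F a b)) :
        ((Fin m ⊕ Fin m) ⊕ Fin 2 → F) ≃ₗ[F] ((Fin m ⊕ Fin m) ⊕ Fin 2 → F)) :
        ((Fin m ⊕ Fin m) ⊕ Fin 2 → K) ≃ₗ[K] ((Fin m ⊕ Fin m) ⊕ Fin 2 → K)) :
        ((Fin m ⊕ Fin m) ⊕ Fin 2 → K) →ₗ[K] ((Fin m ⊕ Fin m) ⊕ Fin 2 → K)) =
        (algebraMap F K (c : F)) • LinearMap.id := by
      refine lin_ext (F := F) fun w => ?_
      refine (bcE_eK _ w).trans ?_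
      exact eK_smul (c : F) w
    have h1 := DFunLike.congr_fun h x
    change bcE F K _ ((linE (qfMinus m F a b) (sclL _ c) : SimE (qfMinus m F a b)) :
        ((Fin m ⊕ Fin m) ⊕ Fin 2 → F) ≃ₗ[F] ((Fin m ⊕ Fin m) ⊕ Fin 2 → F)) x ∈ _
    rw [show bcE F K _ ((linE (qfMinus m F a b) (sclL _ c) : SimE (qfMinus m F a b)) :
        ((Fin m ⊕ Fin m) ⊕ Fin 2 → F) ≃ₗ[F] ((Fin m ⊕ Fin m) ⊕ Fin 2 → F)) x = _ from h1]
    exact Submodule.smul_mem _ _ hx

theorem epsK_eq_one_iff [Finite F] (l : LinS (qfMinus m F a b)) :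
    epsK m hab hα l = 1 ↔ Par (m + 1) (LinearMap.ker (ann K m α)) ((LinearMap.ker (ann K m α)).map
      ((bcE F K ((Fin m ⊕ Fin m) ⊕ Fin 2) ((linE (qfMinus m F a b) l : SimE (qfMinus m F a b)) :
      ((Fin m ⊕ Fin m) ⊕ Fin 2 → F) ≃ₗ[F] ((Fin m ⊕ Fin m) ⊕ Fin 2 → F)) :
      ((Fin m ⊕ Fin m) ⊕ Fin 2 → K) ≃ₗ[K] ((Fin m ⊕ Fin m) ⊕ Fin 2 → K)) :
      ((Fin m ⊕ Fin m) ⊕ Fin 2 → K) →ₗ[K] ((Fin m ⊕ Fin m) ⊕ Fin 2 → K))) :=
  epsU_eq_one_iff (Q := qfMK m K a b) (qfMK_nondeg hab) finrank_VK (TS_ann hα) (finrank_ann α) _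

theorem bc_lin (l : LinS (qfMinus m F a b)) (g : Matrix ((Fin m ⊕ Fin m) ⊕ Fin 2) ((Fin m ⊕ Fin m) ⊕ Fin 2) F)
    (hl : ∀ v, ((linE (qfMinus m F a b) l : SimE (qfMinus m F a b)) :
      ((Fin m ⊕ Fin m) ⊕ Fin 2 → F) ≃ₗ[F] ((Fin m ⊕ Fin m) ⊕ Fin 2 → F)) v = g.mulVec v) (v) :
    bcE F K ((Fin m ⊕ Fin m) ⊕ Fin 2) ((linE (qfMinus m F a b) l : SimE (qfMinus m F a b)) :
      ((Fin m ⊕ Fin m) ⊕ Fin 2 → F) ≃ₗ[F] ((Fin m ⊕ Fin m) ⊕ Fin 2 → F)) v = (g.map (algebraMap F K)).mulVec v :=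
  bcE_mulVec _ g hl v

end facts


end minus

end Cfsg.Agent.SimO
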