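import Cfsg.Agent.SimO.Split
import Mathlib.LinearAlgebra.Matrix.Charpoly.Coeff

/-!
Determinants of similarities whose square is a scalar.
-/

set_option autoImplicit false

namespace Cfsg.Agent.SimO

open QuadraticMap Module Cfsg.Agent.ClassO Cfsg.Agent.AutO
open Cfsg.Agent.Orth hiding two_ne_zero_of_odd map_mul

section charpoly

open Polynomial in
/-- Determinant of a matrix whose square is a nonsquare scalar. -/
theorem det_of_sq {F : Type*} [Field F] {ι : Type*} [Fintype ι] [DecidableEq ι] {M : Matrix ι ι F} {lam : F}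
    (hM : M * M = lam • (1 : Matrix ι ι F)) (hl : ¬ IsSquare lam) {n : ℕ} (hn : Fintype.card ι = 2 * n) :
    M.det = (-lam) ^ n := by
  set P : F[X] := X ^ 2 - C lam with hP
  have hPm : P.Monic := monic_X_pow_sub_C lam (by norm_num)
  have hPd : P.natDegree = 2 := natDegree_X_pow_sub_C
  have hirr : Irreducible P := by
    refine (Polynomial.Monic.irreducible_iff_natDegree' hPm).2 ⟨?_, ?_⟩
    · intro h; rw [h] at hPd; simp at hPd
    · intro f g hf hg hfg hmem
      rw [hPd] at hmem
      have hg1 : g.natDegree = 1 := by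
        have := Finset.mem_Ioc.1 hmem
        omega
      -- root
      have h1 : g = X + C (g.coeff 0) := by
        have := Polynomial.Monic.eq_X_add_C hg hg1
        exact this
      apply hl
      refine ⟨-g.coeff 0, ?_⟩
      have h2 : P.eval (-g.coeff 0) = 0 := by
        rw [← hfg, eval_mul]
        conv_lhs => rw [h1]
        simp
      rw [hP] at h2
      simp at h2
      linear_combination -h2
  have hprime : Prime P := hirr.prime
  have hdvd : M.charpoly ∣ P ^ (Fintype.card ι) := by
    have h1 : (Matrix.scalar ι (X : F[X]) - C.mapMatrix M) * (Matrix.scalar ι (X : F[X]) + C.mapMatrix M) =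
        Matrix.scalar ι P := by
      rw [sub_mul, mul_add, mul_add]
      have h2 : C.mapMatrix M * Matrix.scalar ι (X : F[X]) = Matrix.scalar ι (X : F[X]) * C.mapMatrix M :=
        ((Matrix.scalar_commute (X : F[X]) (fun r => mul_comm _ _) (C.mapMatrix M)).eq).symm
      have h3 : C.mapMatrix M * C.mapMatrix M = Matrix.scalar ι (C lam) := by
        rw [← map_mul, hM]
        ext i j
        simp [Matrix.scalar_apply, Matrix.diagonal_apply, Matrix.one_apply]
        split_ifs <;> simp
      rw [h2, h3, ← map_mul, hP, map_sub, pow_two]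
      abel
    refine ⟨(Matrix.scalar ι (X : F[X]) + C.mapMatrix M).det, ?_⟩
    have h4 := congrArg Matrix.det h1
    rw [Matrix.det_mul, Matrix.scalar_apply P, Matrix.det_diagonal, Finset.prod_const, Finset.card_univ] at h4
    rw [← h4]
    rfl
  obtain ⟨i, -, hi⟩ := (dvd_prime_pow hprime _).1 hdvd
  have hcp : M.charpoly = P ^ i := eq_of_monic_of_associated M.charpoly_monic (hPm.pow i) hi
  have hdeg : M.charpoly.natDegree = 2 * n := by rw [Matrix.charpoly_natDegree_eq_dim, hn]
  rw [hcp, hPm.natDegree_pow, hPd] at hdeg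
  have hin : i = n := by omega
  rw [Matrix.det_eq_sign_charpoly_coeff, hcp, hin, hn, pow_mul, neg_one_sq, one_pow, one_mul,
    coeff_zero_eq_eval_zero, eval_pow, hP]
  simp

/-- Determinant of an involution. -/
theorem det_invol {F V : Type*} [Field F] [AddCommGroup V] [Module F V] [FiniteDimensional F V] (G : V →ₗ[F] V)
    (hG : ∀ v, G (G v) = v) {d : ℕ}
    (hd : finrank F (LinearMap.ker (G - LinearMap.id)) + d = finrank F V) : LinearMap.det G = (-1) ^ d := by
  set W := LinearMap.ker (G - LinearMap.id) with hW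
  have hWm : ∀ v, v ∈ W ↔ G v = v := by
    intro v
    rw [hW, LinearMap.mem_ker, LinearMap.sub_apply, LinearMap.id_apply, sub_eq_zero]
  have he : W ≤ W.comap G := by
    intro v hv
    rw [Submodule.mem_comap, hWm]
    rw [hWm] at hv
    rw [hv, hv]
  rw [G.det_eq_det_mul_det W he]
  have h1 : G.restrict he = LinearMap.id := by
    ext v
    exact (hWm v).1 v.2
  have h2 : W.mapQ W G he = (-1 : F) • LinearMap.id := by
    apply LinearMap.ext
    intro x
    obtain ⟨v, rfl⟩ := W.mkQ_surjective x
    rw [Submodule.mkQ_apply, Submodule.mapQ_apply, LinearMap.smul_apply, LinearMap.id_apply, neg_smul, one_smul,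
      ← Submodule.Quotient.mk_neg, Submodule.Quotient.eq, hWm, map_sub, map_neg, hG]
    abel
  have h3 : finrank F (V ⧸ W) = d := by
    have := W.finrank_quotient_add_finrank
    omega
  rw [h1, h2, LinearMap.det_id, LinearMap.det_smul, LinearMap.det_id, h3, one_mul, mul_one]

end charpoly

section mat
variable {F : Type*} [Field F] {ι : Type} [Fintype ι] [DecidableEq ι] {Q : QuadraticForm F (ι → F)}

/-- determinant of a linear similarity -/
noncomputable def dL (Q : QuadraticForm F (ι → F)) : LinS Q →* Fˣ :=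
  (LinearEquiv.det : ((ι → F) ≃ₗ[F] (ι → F)) →* Fˣ).comp ((SimE Q).subtype.comp (linE Q))

theorem coe_dL (l : LinS Q) : ((dL Q l : Fˣ) : F) =
    LinearMap.det (((linE Q l : SimE Q) : (ι → F) ≃ₗ[F] (ι → F)) : (ι → F) →ₗ[F] (ι → F)) := LinearEquiv.coe_det _

/-- signs in the field -/
def sgn (F : Type*) [Field F] : ℤˣ →* Fˣ := Units.map (Int.castRingHom F : ℤ →* F)

theorem sgn_neg_one : sgn F (-1) = -1 := Units.ext (by
  change (Int.castRingHom F) ((-1 : ℤˣ) : ℤ) = ((-1 : Fˣ) : F)
  simp)

section fin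
variable [Fintype F] [hG : AutO.Good Q] {ε : LinS Q →* ℤˣ} (hε : IsEps ε) {n : ℕ}
  (hn : Fintype.card ι = 2 * n)

omit hG in
theorem dL_scl (c : Fˣ) : dL Q (sclL Q c) = c ^ Fintype.card ι := by
  apply Units.ext
  rw [coe_dL]
  have h : (((linE Q (sclL Q c) : SimE Q) : (ι → F) ≃ₗ[F] (ι → F)) : (ι → F) →ₗ[F] (ι → F)) =
      (c : F) • LinearMap.id := LinearMap.ext fun v => rfl
  rw [h, LinearMap.det_smul, LinearMap.det_id, mul_one, finrank_fintype_fun_eq_card, Units.val_pow_eq_pow_val]

theorem dL_of (k : OGrp Q) : dL Q (ofL Q k) = sgn F (parityHom hG.nd hG.rg k) := by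
  apply Units.ext
  rw [coe_dL]
  exact det_parity hG.nd hG.rg k

include hε hn

theorem det_eps {δ : LinS Q} (hδ : chi (exists_q (Q := Q)) δ = -1)
    (hδd : dL Q δ = mu (exists_q (Q := Q)) δ ^ n * sgn F (ε δ)) (l : LinS Q) :
    dL Q l = mu (exists_q (Q := Q)) l ^ n * sgn F (ε l) := by
  have key : ∀ l : LinS Q, chi (exists_q (Q := Q)) l = 1 →
      dL Q l = mu (exists_q (Q := Q)) l ^ n * sgn F (ε l) := by
    intro l hl
    obtain ⟨c, k, rfl⟩ := (chi_eq_one_iff l).1 hl
    rw [map_mul, map_mul, map_mul, dL_scl, dL_of, hε.scl, hε.isom, one_mul, hn, mu_eq exists_q (isSemi_scl c),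
      mu_eq exists_q (isSemi_ofO k), mul_one, ← pow_mul]
  rcases Int.units_eq_one_or (chi (exists_q (Q := Q)) l) with h | h
  · exact key l h
  · have h1 := key (l * δ⁻¹) (by rw [map_mul, map_inv, h, hδ]; rfl)
    rw [map_mul, map_mul, map_mul, map_inv, map_inv, map_inv, hδd, map_mul, map_inv, mul_pow] at h1
    have h2 : dL Q l = dL Q l * (mu (exists_q (Q := Q)) δ ^ n * sgn F (ε δ))⁻¹ *
        (mu (exists_q (Q := Q)) δ ^ n * sgn F (ε δ)) := by rw [inv_mul_cancel_right]
    rw [h2, h1]
    rw [inv_pow]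
    have : ∀ a b c d : Fˣ, a * b⁻¹ * (c * d⁻¹) * (b * d) = a * c := by
      intro a b c d
      rw [mul_mul_mul_comm a b⁻¹ c d⁻¹, ← mul_inv, inv_mul_cancel_right]
    exact this _ _ _ _

end fin

end mat

end Cfsg.Agent.SimO
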