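import Cfsg.Agent.SimO.Det

/-!
Involutory graph automorphisms.
-/

set_option autoImplicit false

namespace Cfsg.Agent.SimO

open QuadraticMap Module Cfsg.Agent.ClassO Cfsg.Agent.AutO
open Cfsg.Agent.Orth hiding two_ne_zero_of_odd map_mul

section mat
variable {F : Type*} [Field F] {ι : Type} [Fintype ι] [DecidableEq ι] {Q : QuadraticForm F (ι → F)}
  [Fintype F] [hG : AutO.Good Q] {ε : LinS Q →* ℤˣ}

/-- `l` as a function -/
abbrev fn (l : LinS Q) (v : ι → F) : ι → F := ((l : GamO Q) : Equiv.Perm (ι → F)) v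

theorem fn_mul (l l' : LinS Q) (v : ι → F) : fn (l * l') v = fn l (fn l' v) := rfl

theorem fn_add (l : LinS Q) (v w : ι → F) : fn l (v + w) = fn l v + fn l w := by
  obtain ⟨c, hc⟩ := l.2; exact hc.add v w

theorem fn_smul (l : LinS Q) (a : F) (v : ι → F) : fn l (a • v) = a • fn l v := by
  obtain ⟨c, hc⟩ := l.2; exact hc.smul a v

theorem fn_scl (c : Fˣ) (v : ι → F) : fn (sclL Q c) v = (c : F) • v := rfl

theorem lin_ext' {l l' : LinS Q} (h : ∀ v, fn l v = fn l' v) : l = l' := Subtype.ext (gam_ext h)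

theorem fn_q (l : LinS Q) (v : ι → F) : Q (fn l v) = (mu (exists_q (Q := Q)) l : F) * Q v :=
  (mu_spec exists_q l).q v

theorem fn_polar (l : LinS Q) (v w : ι → F) :
    polar Q (fn l v) (fn l w) = (mu (exists_q (Q := Q)) l : F) * polar Q v w :=
  (mu_spec exists_q l).polar v w

theorem sclL_mul (c d : Fˣ) : sclL Q (c * d) = sclL Q c * sclL Q d := Subtype.ext (scl_mul c d)

theorem sclL_one : sclL Q 1 = 1 := lin_ext' fun v => by rw [fn_scl, Units.val_one, one_smul]; rfl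

theorem sclL_comm (c : Fˣ) (l : LinS Q) : sclL Q c * l = l * sclL Q c :=
  lin_ext' fun v => by rw [fn_mul, fn_mul, fn_scl, fn_scl, fn_smul]

theorem mu_scl (c : Fˣ) : mu (exists_q (Q := Q)) (sclL Q c) = c ^ 2 := mu_eq exists_q (isSemi_scl c)

theorem mu_of (k : OGrp Q) : mu (exists_q (Q := Q)) (ofL Q k) = 1 := mu_eq exists_q (isSemi_ofO k)

/-- involution of `Aut`: square is a scalar -/
theorem exists_lam {g : LinS Q} (h : cL Q g * cL Q g = 1) : ∃ lam : Fˣ, g * g = sclL Q lam := by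
  rw [← map_mul] at h
  exact (cL_eq_one_iff _).1 h

theorem mu_sq {g : LinS Q} {lam : Fˣ} (h : g * g = sclL Q lam) :
    mu (exists_q (Q := Q)) g = lam ∨ mu (exists_q (Q := Q)) g = -lam := by
  have h1 := congrArg (mu (exists_q (Q := Q))) h
  rw [map_mul, mu_scl, pow_two] at h1
  have h2 : ((mu (exists_q (Q := Q)) g : Fˣ) : F) * (mu (exists_q (Q := Q)) g : Fˣ) = (lam : F) * lam := by
    rw [← Units.val_mul, h1, Units.val_mul]
  rcases mul_self_eq_mul_self_iff.1 h2 with h3 | h3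
  · left; exact Units.ext h3
  · right; exact Units.ext (by rw [h3, Units.val_neg])

/-- two similarities commute in `Aut` iff they commute up to a scalar -/
theorem comm_iff (g l : LinS Q) : cL Q l * cL Q g = cL Q g * cL Q l ↔ ∃ t : Fˣ, l * g = sclL Q t * (g * l) := by
  rw [← map_mul, ← map_mul, ← mul_inv_eq_one, ← map_inv, ← map_mul, cL_eq_one_iff]
  constructor
  · rintro ⟨t, ht⟩; exact ⟨t, by rw [← ht, inv_mul_cancel_right]⟩
  · rintro ⟨t, ht⟩; exact ⟨t, by rw [ht, mul_inv_cancel_right]⟩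

/-- the scalar is a sign -/
theorem comm_sign {g l : LinS Q} {t : Fˣ} (h : l * g = sclL Q t * (g * l)) : t = 1 ∨ t = -1 := by
  have h1 := congrArg (mu (exists_q (Q := Q))) h
  rw [map_mul, map_mul, map_mul, mu_scl, mul_comm (mu _ g)] at h1
  have h2 : t ^ 2 = 1 := by
    have := congrArg (· * (mu (exists_q (Q := Q)) l * mu (exists_q (Q := Q)) g)⁻¹) h1
    simp only [mul_inv_cancel, mul_inv_cancel_right] at this
    exact this.symm
  exact OAut.sq_one_cases (by rw [← pow_two]; exact h2)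

variable (hε : IsEps ε)

/-- an isometry of parity `-1` commutes with no similarity with nonsquare multiplier when `-1 ∈ Ω` -/
theorem no_comm (hn2 : spinHom hG.nd hG.rg (negO Q) = 1) {k : OGrp Q} (hk : parityHom hG.nd hG.rg k = -1)
    {l : LinS Q} (hl : chi (exists_q (Q := Q)) l = -1) : cL Q l * cL Q (ofL Q k) ≠ cL Q (ofL Q k) * cL Q l := by
  intro h
  obtain ⟨t, ht⟩ := (comm_iff _ _).1 h
  have hsq : ¬ IsSquare ((mu (exists_q (Q := Q)) l : Fˣ) : F) := by
    intro h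
    rw [chi_apply, sqc, if_pos h] at hl
    exact absurd hl (by decide)
  have h1 : ofL Q (conjO Q (l : GamO Q) k) = sclL Q t * ofL Q k := by
    rw [← conj_ofL, ht, ← mul_assoc, mul_inv_cancel_right]
  have h2 : spinHom hG.nd hG.rg (conjO Q (l : GamO Q) k) = spinHom hG.nd hG.rg k := by
    rcases comm_sign ht with rfl | rfl
    · have : conjO Q (l : GamO Q) k = k := OGrp_ext fun v => by
        have := congrArg (fun x => fn x v) h1
        change (conjO Q (l : GamO Q) k : (ι → F) ≃ₗ[F] (ι → F)) v = ((1 : Fˣ) : F) • (k : (ι → F) ≃ₗ[F] (ι → F)) v at this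
        rwa [Units.val_one, one_smul] at this
      rw [this]
    · have : conjO Q (l : GamO Q) k = negO Q * k := OGrp_ext fun v => by
        have := congrArg (fun x => fn x v) h1
        change (conjO Q (l : GamO Q) k : (ι → F) ≃ₗ[F] (ι → F)) v = ((-1 : Fˣ) : F) • (k : (ι → F) ≃ₗ[F] (ι → F)) v at this
        rwa [Units.val_neg, Units.val_one, neg_smul, one_smul] at this
      rw [this, map_mul, hn2, one_mul]
  rw [spin_conj' hG.nd hG.rg (mu_spec exists_q l) hsq, hk] at h2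
  rcases Int.units_eq_one_or (spinHom hG.nd hG.rg k) with h3 | h3 <;> rw [h3] at h2 <;> exact absurd h2 (by decide)

include hε

/-- `T · C_G(γ) ≤ PSO` -/
theorem M_le (hn2 : spinHom hG.nd hG.rg (negO Q) = 1) {g : LinS Q} (hg : ε g = -1) :
    Cfsg.Inn (T Q) ⊔ (PI ε ⊓ Subgroup.centralizer {cL Q g}) ≤ PS Q := by
  refine sup_le inn_le_PS ?_
  rintro _ ⟨⟨l, hl, rfl⟩, hc⟩
  have hc' := Subgroup.mem_centralizer_singleton_iff.1 hc
  have hl' : ε l = 1 := hl
  rw [mem_PS_iff hε]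
  refine ⟨?_, hl'⟩
  by_contra hchi
  have hchi' := units_int_ne_one hchi
  rcases Int.units_eq_one_or (chi (exists_q (Q := Q)) g) with h | h
  · obtain ⟨c, k, rfl⟩ := (chi_eq_one_iff g).1 h
    have hk : cL Q (sclL Q c * ofL Q k) = cL Q (ofL Q k) := by
      rw [map_mul, (cL_eq_one_iff _).2 ⟨c, rfl⟩, one_mul]
    rw [hk] at hc'
    rw [map_mul, hε.scl, hε.isom, one_mul] at hg
    exact no_comm hn2 hg hchi' hc'
  · obtain ⟨c, k, hk⟩ := (chi_eq_one_iff (l * g)).1 (by rw [map_mul, hchi', h]; rfl)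
    have hk' : cL Q (l * g) = cL Q (ofL Q k) := by
      rw [hk, map_mul, (cL_eq_one_iff _).2 ⟨c, rfl⟩, one_mul]
    have hpar : parityHom hG.nd hG.rg k = -1 := by
      rw [← hε.isom]
      have := congrArg ε hk
      rw [map_mul, map_mul, hε.scl, one_mul, hl', hg, one_mul] at this
      exact this.symm
    refine no_comm hn2 hpar h ?_
    rw [← hk', map_mul, ← mul_assoc, ← hc']

omit hε in
theorem PS_le_M {z : OGrp Q} (hz1 : parityHom hG.nd hG.rg z = 1) (hz2 : spinHom hG.nd hG.rg z = -1)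
    {M : Subgroup (MulAut (T Q))} (hM : Cfsg.Inn (T Q) ≤ M) (hzM : cL Q (ofL Q z) ∈ M) : PS Q ≤ M := by
  rintro _ ⟨k, hk, rfl⟩
  have hk' : parityHom hG.nd hG.rg k = 1 := hk
  rcases Int.units_eq_one_or (spinHom hG.nd hG.rg k) with h | h
  · exact hM ((oL_eq_one_iff' _).1 (oL_of hk' h))
  · have h1 : cL Q (ofL Q (k * z⁻¹)) ∈ Cfsg.Inn (T Q) := (oL_eq_one_iff' _).1 (oL_of
      (by rw [map_mul, map_inv, hk', hz1]; rfl) (by rw [map_mul, map_inv, h, hz2]; rfl))
    have h2 := M.mul_mem (hM h1) hzM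
    rw [← map_mul, ← map_mul, inv_mul_cancel_right] at h2
    exact h2

theorem PS_index_PI (hχ : ∃ l : LinS Q, chi (exists_q (Q := Q)) l = -1) : (PS Q).relIndex (PI ε) = 2 := by
  rw [relIndex_of_phi (PI_mod_PS hε hχ), card_sgn]

/-- the count when `-1 ∈ Ω` -/
theorem split_eq_two (hχ : ∃ l : LinS Q, chi (exists_q (Q := Q)) l = -1)
    (hn2 : spinHom hG.nd hG.rg (negO Q) = 1) {g : LinS Q} (hg : ε g = -1)
    {z : OGrp Q} (hz1 : parityHom hG.nd hG.rg z = 1) (hz2 : spinHom hG.nd hG.rg z = -1)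
    (hzg : cL Q (ofL Q z) * cL Q g = cL Q g * cL Q (ofL Q z)) :
    Cfsg.splitClassCount (PI ε) (Cfsg.Inn (T Q)) (cL Q g) = 2 := by
  rw [splitClassCount_eq_relIndex _ _ (inn_le_PS.trans (PS_le_PI hε)), ← PS_index_PI hε hχ]
  congr 1
  refine le_antisymm (M_le hε hn2 hg) (PS_le_M hz1 hz2 le_sup_left ?_)
  refine Subgroup.mem_sup_right ⟨(mem_PI_iff hε _).2 ?_, Subgroup.mem_centralizer_singleton_iff.2 hzg⟩
  rw [hε.isom, hz1]

/-- the count when `-1 ∉ Ω` -/
theorem split_one_or_two (hχ : ∃ l : LinS Q, chi (exists_q (Q := Q)) l = -1)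
    (hn1 : parityHom hG.nd hG.rg (negO Q) = 1) (hn2 : spinHom hG.nd hG.rg (negO Q) = -1) (x : MulAut (T Q)) :
    Cfsg.splitClassCount (PI ε) (Cfsg.Inn (T Q)) x = 1 ∨ Cfsg.splitClassCount (PI ε) (Cfsg.Inn (T Q)) x = 2 := by
  have h0 : Cfsg.Inn (T Q) ≤ PI ε := inn_le_PS.trans (PS_le_PI hε)
  rw [splitClassCount_eq_relIndex _ _ h0]
  refine relIndex_two_cases (K := Cfsg.Inn (T Q)) le_sup_left (sup_le h0 inf_le_left) ?_
  rw [← PS_eq_inn hn1 hn2]
  exact PS_index_PI hε hχ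

/-- the count when `-1 ∉ Ω` and the centraliser is in `T` -/
theorem split_two' (hχ : ∃ l : LinS Q, chi (exists_q (Q := Q)) l = -1)
    (hn1 : parityHom hG.nd hG.rg (negO Q) = 1) (hn2 : spinHom hG.nd hG.rg (negO Q) = -1) {g : LinS Q}
    (h : ∀ l : LinS Q, ε l = 1 → cL Q l * cL Q g = cL Q g * cL Q l → chi (exists_q (Q := Q)) l = 1) :
    Cfsg.splitClassCount (PI ε) (Cfsg.Inn (T Q)) (cL Q g) = 2 := by
  have h0 : Cfsg.Inn (T Q) ≤ PI ε := inn_le_PS.trans (PS_le_PI hε)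
  rw [splitClassCount_eq_relIndex _ _ h0, ← PS_index_PI hε hχ]
  congr 1
  refine le_antisymm (sup_le inn_le_PS ?_) ?_
  · rintro _ ⟨⟨l, hl, rfl⟩, hc⟩
    rw [mem_PS_iff hε]
    exact ⟨h l hl (Subgroup.mem_centralizer_singleton_iff.1 hc), hl⟩
  · rw [PS_eq_inn hn1 hn2]; exact le_sup_left

end mat

end Cfsg.Agent.SimO
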