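import Cfsg.Agent.SimO.Graph

/-!
Involutory graph automorphisms: linear algebra.
-/

set_option autoImplicit false

namespace Cfsg.Agent.SimO

open QuadraticMap Module Cfsg.Agent.ClassO Cfsg.Agent.AutO
open Cfsg.Agent.Orth hiding two_ne_zero_of_odd map_mul

section invol

variable {F V : Type*} [Field F] [AddCommGroup V] [Module F V] [FiniteDimensional F V] (G : V →ₗ[F] V)

/-- fixed space -/
def fixP : Submodule F V := LinearMap.ker (G - LinearMap.id)
/-- negated space -/
def fixM : Submodule F V := LinearMap.ker (G + LinearMap.id)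

omit [FiniteDimensional F V] in
theorem mem_fixP {v : V} : v ∈ fixP G ↔ G v = v := by
  rw [fixP, LinearMap.mem_ker, LinearMap.sub_apply, LinearMap.id_apply, sub_eq_zero]

omit [FiniteDimensional F V] in
theorem mem_fixM {v : V} : v ∈ fixM G ↔ G v = -v := by
  rw [fixM, LinearMap.mem_ker, LinearMap.add_apply, LinearMap.id_apply, add_eq_zero_iff_eq_neg]

variable (h2 : (2 : F) ≠ 0) (hG : ∀ v, G (G v) = v)

include h2 hG

theorem finrank_fix : finrank F (fixP G) + finrank F (fixM G) = finrank F V := by
  have h1 : fixP G ⊓ fixM G = ⊥ := by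
    rw [eq_bot_iff]
    rintro v ⟨hv1, hv2⟩
    rw [SetLike.mem_coe, mem_fixP] at hv1
    rw [SetLike.mem_coe, mem_fixM, hv1] at hv2
    rw [Submodule.mem_bot]
    have h3 : (2 : F) • v = 0 := by
      have : v + v = 0 := by nth_rewrite 1 [hv2]; exact neg_add_cancel v
      rw [two_smul]; exact this
    exact (smul_eq_zero.1 h3).resolve_left h2
  have h3 : fixP G ⊔ fixM G = ⊤ := by
    rw [eq_top_iff]
    intro v _
    have h4 : v = (2 : F)⁻¹ • (v + G v) + (2 : F)⁻¹ • (v - G v) := by
      rw [← smul_add]
      have : v + G v + (v - G v) = (2 : F) • v := by rw [two_smul]; abel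
      rw [this, smul_smul, inv_mul_cancel₀ h2, one_smul]
    rw [h4]
    refine Submodule.add_mem_sup ?_ ?_
    · rw [mem_fixP, map_smul, map_add, hG, add_comm]
    · rw [mem_fixM, map_smul, map_sub, hG, ← smul_neg, neg_sub]
  have h5 := Submodule.finrank_sup_add_finrank_inf_eq (fixP G) (fixM G)
  rw [h1, h3, finrank_bot, finrank_top, add_zero] at h5
  exact h5.symm

theorem det_fix : LinearMap.det G = (-1) ^ finrank F (fixM G) :=
  det_invol G hG (finrank_fix G h2 hG)

end invol

section mat
variable {F : Type*} [Field F] {ι : Type} [Fintype ι] [DecidableEq ι] {Q : QuadraticForm F (ι → F)}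
  [Fintype F] [hG : AutO.Good Q] {ε : LinS Q →* ℤˣ} (hε : IsEps ε) {n : ℕ} (hn : Fintype.card ι = 2 * n)
  (h2 : (2 : F) ≠ 0)

theorem neg_one_ne (h2 : (2 : F) ≠ 0) : (-1 : Fˣ) ≠ 1 := by
  intro h
  apply h2
  have h1 := congrArg Units.val h
  rw [Units.val_neg, Units.val_one] at h1
  linear_combination -h1

/-- the linear map -/
noncomputable abbrev lm (l : LinS Q) : (ι → F) →ₗ[F] (ι → F) :=
  (((linE Q l : SimE Q) : (ι → F) ≃ₗ[F] (ι → F)) : (ι → F) →ₗ[F] (ι → F))

omit [Fintype F] hG in
theorem lm_apply (l : LinS Q) (v : ι → F) : lm l v = ((l : GamO Q) : Equiv.Perm (ι → F)) v := rfl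

include hε hn h2

theorem graph_cases (hdet : ∀ l, dL Q l = mu (exists_q (Q := Q)) l ^ n * sgn F (ε l)) {g : LinS Q} {lam : Fˣ}
    (hg2 : g * g = sclL Q lam) (hg : ε g = -1) :
    (∃ (t : Fˣ) (k : OGrp Q), g = sclL Q t * ofL Q k ∧ k * k = 1 ∧ parityHom hG.nd hG.rg k = -1) ∨
      (mu (exists_q (Q := Q)) g = lam ∧ ¬ IsSquare (lam : F) ∧ Odd n) := by
  have hfin : finrank F (ι → F) = 2 * n := by rw [finrank_fintype_fun_eq_card, hn]
  by_cases hsq : IsSquare (lam : F)
  · left
    obtain ⟨t0, ht0⟩ := hsq
    have ht00 : t0 ≠ 0 := by rintro rfl; rw [mul_zero] at ht0; exact lam.ne_zero ht0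
    set t : Fˣ := Units.mk0 t0 ht00 with htdef
    have ht : lam = t * t := Units.ext ht0
    have hgg : (sclL Q t⁻¹ * g) * (sclL Q t⁻¹ * g) = 1 := by
      rw [show sclL Q t⁻¹ * g * (sclL Q t⁻¹ * g) = sclL Q t⁻¹ * (g * sclL Q t⁻¹) * g by group, ← sclL_comm,
        show sclL Q t⁻¹ * (sclL Q t⁻¹ * g) * g = (sclL Q t⁻¹ * sclL Q t⁻¹) * (g * g) by group, hg2, ← sclL_mul,
        ← sclL_mul, ht, mul_mul_mul_comm, inv_mul_cancel, mul_one, sclL_one]
    have hmu : mu (exists_q (Q := Q)) (sclL Q t⁻¹ * g) = (t * t)⁻¹ * mu (exists_q (Q := Q)) g := by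
      rw [map_mul, mu_scl, pow_two, mul_inv]
    have heps : ε (sclL Q t⁻¹ * g) = -1 := by rw [map_mul, hε.scl, hg, one_mul]
    rcases mu_sq hg2 with h | h
    · rw [h, ht, inv_mul_cancel] at hmu
      have h3 := mu_spec (exists_q (Q := Q)) (sclL Q t⁻¹ * g)
      rw [hmu] at h3
      obtain ⟨k, hk⟩ := exists_ofO h3
      have hk' : sclL Q t⁻¹ * g = ofL Q k := Subtype.ext hk
      refine ⟨t, k, ?_, ?_, ?_⟩
      · rw [← hk', ← mul_assoc, ← sclL_mul, mul_inv_cancel, sclL_one, one_mul]
      · rw [hk', ← map_mul] at hgg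
        refine OGrp_ext fun v => ?_
        exact congrArg (fun x => fn x v) hgg
      · rw [← hε.isom, ← hk', heps]
    · exfalso
      rw [h, ht, mul_neg, inv_mul_cancel] at hmu
      set g' := sclL Q t⁻¹ * g with hg'
      have hinv : ∀ v, lm g' (lm g' v) = v := fun v => congrArg (fun x => fn x v) hgg
      have hts : ∀ U : Submodule F (ι → F), TS Q U → finrank F U ≤ n := by
        intro U hU
        have h3 := finrank_perp hG.nd U
        have h4 := Submodule.finrank_mono hU.le_perp
        omega
      have hq : ∀ v, Q (lm g' v) = - Q v := by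
        intro v
        have := fn_q g' v
        rw [hmu, Units.val_neg, Units.val_one, neg_mul, one_mul] at this
        exact this
      have hzero : ∀ v, Q v = - Q v → Q v = 0 := by
        intro v h
        have : (2 : F) * Q v = 0 := by linear_combination h
        exact (mul_eq_zero.1 this).resolve_left h2
      have hP : TS Q (fixP (lm g')) := by
        intro v hv
        rw [mem_fixP] at hv
        apply hzero
        rw [← hq, hv]
      have hM : TS Q (fixM (lm g')) := by
        intro v hv
        rw [mem_fixM] at hv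
        apply hzero
        rw [← hq, hv, QuadraticMap.map_neg]
      have h3 := finrank_fix (lm g') h2 hinv
      have h4 := hts _ hP
      have h5 := hts _ hM
      have h6 : finrank F (fixM (lm g')) = n := by omega
      have h7 := det_fix (lm g') h2 hinv
      have h8 := hdet g'
      rw [hmu, heps, sgn_neg_one] at h8
      have h9 : dL Q g' = (-1) ^ n := by
        apply Units.ext
        rw [coe_dL]
        refine h7.trans ?_
        rw [h6, Units.val_pow_eq_pow_val, Units.val_neg, Units.val_one]
      rw [h9] at h8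
      have h10 : (-1 : Fˣ) = 1 := by
        have := congrArg (fun x => ((-1 : Fˣ) ^ n)⁻¹ * x) h8
        simp only [inv_mul_cancel_left, inv_mul_cancel] at this
        exact this.symm
      exact neg_one_ne h2 h10
  · right
    have hM : (LinearMap.toMatrix' (lm g)) * (LinearMap.toMatrix' (lm g)) = (lam : F) • (1 : Matrix ι ι F) := by
      rw [← LinearMap.toMatrix'_comp]
      have : (lm g).comp (lm g) = (lam : F) • LinearMap.id := LinearMap.ext fun v =>
        congrArg (fun x => fn x v) hg2
      rw [this, map_smul, LinearMap.toMatrix'_id]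
    have hd := det_of_sq hM hsq hn
    rw [LinearMap.det_toMatrix'] at hd
    have hd' : dL Q g = (-lam) ^ n := by
      apply Units.ext
      rw [coe_dL]
      refine hd.trans ?_
      rw [Units.val_pow_eq_pow_val, Units.val_neg]
    have h8 := hdet g
    rw [hd', hg, sgn_neg_one] at h8
    rcases mu_sq hg2 with h | h
    · refine ⟨h, hsq, ?_⟩
      by_contra hodd
      have hev := Nat.not_odd_iff_even.1 hodd
      rw [h, hev.neg_pow] at h8
      have h10 : (-1 : Fˣ) = 1 := by
        have := congrArg (fun x => ((lam : Fˣ) ^ n)⁻¹ * x) h8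
        simp only [inv_mul_cancel_left, inv_mul_cancel] at this
        exact this.symm
      exact neg_one_ne h2 h10
    · exfalso
      rw [h] at h8
      have h10 : (-1 : Fˣ) = 1 := by
        have := congrArg (fun x => ((-lam : Fˣ) ^ n)⁻¹ * x) h8
        simp only [inv_mul_cancel_left, inv_mul_cancel] at this
        exact this.symm
      exact neg_one_ne h2 h10

end mat

end Cfsg.Agent.SimO
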