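import Cfsg.Agent.SimO.Graph2
import Mathlib.Algebra.QuadraticAlgebra.NormDeterminant

/-!
Involutory graph automorphisms: commuting isometries of spinor norm `-1`.
-/

set_option autoImplicit false

namespace Cfsg.Agent.SimO

open QuadraticMap Module Cfsg.Agent.ClassO Cfsg.Agent.AutO
open Cfsg.Agent.Orth hiding two_ne_zero_of_odd map_mul

section gen
variable {F V : Type*} [Field F] [AddCommGroup V] [Module F V] [FiniteDimensional F V] {Q : QuadraticForm F V}

/-- the restriction of the form to a subspace meeting its perp trivially -/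
theorem restrict_nondeg {W : Submodule F V} (hW : ∀ x ∈ W, (∀ y ∈ W, polar Q x y = 0) → x = 0) :
    (polarBilin (Q.comp W.subtype)).Nondegenerate := by
  have hp : ∀ v w : W, polar (Q.comp W.subtype) v w = polar Q (v : V) (w : V) := fun v w => rfl
  refine ⟨fun x hx => ?_, fun x hx => ?_⟩
  · apply Subtype.ext
    exact hW x x.2 fun y hy => by rw [← hp x ⟨y, hy⟩]; exact hx ⟨y, hy⟩
  · apply Subtype.ext
    refine hW x x.2 fun y hy => ?_
    rw [pc, ← hp ⟨y, hy⟩ x]; exact hx ⟨y, hy⟩

/-- values on a nondegenerate subspace -/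
theorem exists_q_sub [Finite F] {W : Submodule F V} (hW : ∀ x ∈ W, (∀ y ∈ W, polar Q x y = 0) → x = 0)
    (hd : 2 ≤ finrank F W) (c : F) : ∃ v ∈ W, Q v = c := by
  obtain ⟨v, hv⟩ := exists_q_eq (restrict_nondeg hW) hd c
  exact ⟨v, v.2, hv⟩

section invol
variable (hQ : (polarBilin Q).Nondegenerate) (h2 : (2 : F) ≠ 0) {k : OGrp Q} (hk : k * k = 1)

/-- the linear map of an isometry -/
abbrev om (k : OGrp Q) : V →ₗ[F] V := ((k : V ≃ₗ[F] V) : V →ₗ[F] V)

include hk
omit [FiniteDimensional F V] in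
theorem om_invol (v : V) : om k (om k v) = v := by
  have := congrArg (fun x : OGrp Q => (x : V ≃ₗ[F] V) v) hk
  exact this

include hQ h2

omit [FiniteDimensional F V] in
theorem nd_fixP : ∀ x ∈ fixP (om k), (∀ y ∈ fixP (om k), polar Q x y = 0) → x = 0 := by
  intro x hx h
  rw [mem_fixP] at hx
  refine hQ.1 x fun z => ?_
  rw [pbil]
  have h1 : z + om k z ∈ fixP (om k) := by
    rw [mem_fixP, map_add, om_invol hk, add_comm]
  have h3 := h _ h1
  have h4 : polar Q x (om k z) = polar Q x z := by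
    have : polar Q (om k x) (om k z) = polar Q x z := OGrp_polar k x z
    rwa [hx] at this
  rw [par, h4] at h3
  have h5 : (2 : F) * polar Q x z = 0 := by linear_combination h3
  exact (mul_eq_zero.1 h5).resolve_left h2

omit [FiniteDimensional F V] in
theorem nd_fixM : ∀ x ∈ fixM (om k), (∀ y ∈ fixM (om k), polar Q x y = 0) → x = 0 := by
  intro x hx h
  rw [mem_fixM] at hx
  refine hQ.1 x fun z => ?_
  rw [pbil]
  have h1 : z - om k z ∈ fixM (om k) := by
    rw [mem_fixM, map_sub, om_invol hk, neg_sub]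
  have h3 := h _ h1
  have h4 : polar Q x (om k z) = - polar Q x z := by
    have : polar Q (om k x) (om k z) = polar Q x z := OGrp_polar k x z
    rw [hx] at this
    have h6 : polar Q (-x) (om k z) = - polar Q x (om k z) := by
      have := psl Q (-1) x (om k z)
      rwa [neg_one_smul, neg_one_mul] at this
    rw [h6] at this
    linear_combination -this
  rw [pdr, h4] at h3
  have h5 : (2 : F) * polar Q x z = 0 := by linear_combination h3
  exact (mul_eq_zero.1 h5).resolve_left h2

end invol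

theorem refl_conj_self {k : OGrp Q} {v : V} (hv : Q v ≠ 0) (h : (k : V ≃ₗ[F] V) v = v ∨ (k : V ≃ₗ[F] V) v = -v) :
    k * refl Q v hv = refl Q v hv * k := by
  refine OGrp_ext fun x => ?_
  rw [coe_mul_apply, coe_mul_apply, refl_apply, refl_apply, map_sub, map_smul]
  rcases h with h | h
  · have h3 : polar Q ((k : V ≃ₗ[F] V) x) v = polar Q x v := by
      conv_lhs => rw [← h]
      exact OGrp_polar k x v
    rw [h3, h]
  · have h3 : polar Q ((k : V ≃ₗ[F] V) x) v = - polar Q x v := by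
      have h4 : polar Q ((k : V ≃ₗ[F] V) x) ((k : V ≃ₗ[F] V) v) = polar Q x v := OGrp_polar k x v
      rw [h] at h4
      have h5 := psr Q (-1) ((k : V ≃ₗ[F] V) x) v
      rw [neg_one_smul, h4] at h5
      linear_combination h5
    rw [h3, h]
    module

end gen

section mat
variable {F : Type*} [Field F] {ι : Type} [Fintype ι] [DecidableEq ι] {Q : QuadraticForm F (ι → F)}
  [Fintype F] [hG : AutO.Good Q]

/-- case of an involutory isometry -/
theorem exists_z_invol (hodd : Odd (Fintype.card F)) {k : OGrp Q} (hk : k * k = 1) :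
    ∃ z : OGrp Q, parityHom hG.nd hG.rg z = 1 ∧ spinHom hG.nd hG.rg z = -1 ∧ k * z = z * k := by
  have h2 : (2 : F) ≠ 0 := ClassO.two_ne_zero_of_odd hodd
  have hdim := hG.dim
  have h1 := finrank_fix (om k) h2 (om_invol hk)
  obtain ⟨c, hc⟩ := exists_ns hodd
  have key : ∃ v w : ι → F, Q v = 1 ∧ Q w = c ∧
      ((k : (ι → F) ≃ₗ[F] (ι → F)) v = v ∨ (k : (ι → F) ≃ₗ[F] (ι → F)) v = -v) ∧
      ((k : (ι → F) ≃ₗ[F] (ι → F)) w = w ∨ (k : (ι → F) ≃ₗ[F] (ι → F)) w = -w) := by
    by_cases hP : 2 ≤ finrank F (fixP (om k))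
    · obtain ⟨v, hv, hv1⟩ := exists_q_sub (nd_fixP hG.nd h2 hk) hP 1
      obtain ⟨w, hw, hw1⟩ := exists_q_sub (nd_fixP hG.nd h2 hk) hP (c : F)
      exact ⟨v, w, hv1, hw1, Or.inl ((mem_fixP _).1 hv), Or.inl ((mem_fixP _).1 hw)⟩
    · have hM : 2 ≤ finrank F (fixM (om k)) := by omega
      obtain ⟨v, hv, hv1⟩ := exists_q_sub (nd_fixM hG.nd h2 hk) hM 1
      obtain ⟨w, hw, hw1⟩ := exists_q_sub (nd_fixM hG.nd h2 hk) hM (c : F)
      exact ⟨v, w, hv1, hw1, Or.inr ((mem_fixM _).1 hv), Or.inr ((mem_fixM _).1 hw)⟩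
  obtain ⟨v, w, hv, hw, hkv, hkw⟩ := key
  have hv0 : Q v ≠ 0 := by rw [hv]; exact one_ne_zero
  have hw0 : Q w ≠ 0 := by rw [hw]; exact c.ne_zero
  refine ⟨refl Q v hv0 * refl Q w hw0, ?_, ?_, ?_⟩
  · rw [map_mul, parityHom_refl, parityHom_refl]; rfl
  · rw [map_mul, spinHom_refl, spinHom_refl, hv, hw, hc, sqc, if_pos IsSquare.one]; rfl
  · rw [← mul_assoc, refl_conj_self hv0 hkv, mul_assoc, refl_conj_self hw0 hkw, mul_assoc]

/-- case of a self-adjoint similarity with nonsquare square -/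
theorem exists_z_ns (hodd : Odd (Fintype.card F)) {g : LinS Q} {lam : Fˣ} (hg2 : g * g = sclL Q lam)
    (hmu : mu (exists_q (Q := Q)) g = lam) (hl : ¬ IsSquare (lam : F)) :
    ∃ z : OGrp Q, parityHom hG.nd hG.rg z = 1 ∧ spinHom hG.nd hG.rg z = -1 ∧ g * ofL Q z = ofL Q z * g := by
  have h2 : (2 : F) ≠ 0 := ClassO.two_ne_zero_of_odd hodd
  have hdim := hG.dim
  have hgg : ∀ v, fn g (fn g v) = (lam : F) • v := fun v => congrArg (fun x => fn x v) hg2
  have hq : ∀ v, Q (fn g v) = lam * Q v := fun v => by rw [fn_q, hmu]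
  have hpol : ∀ v w, polar Q (fn g v) (fn g w) = lam * polar Q v w := fun v w => by rw [fn_polar, hmu]
  -- self-adjoint
  have hsa : ∀ v w, polar Q (fn g v) w = polar Q v (fn g w) := by
    intro v w
    have h3 := hpol v (fn g w)
    rw [hgg, psr] at h3
    exact mul_left_cancel₀ lam.ne_zero h3
  -- the vector
  obtain ⟨u, hu1, hu2⟩ : ∃ u, Q u = 1 ∧ polar Q u (fn g u) = 0 := by
    obtain ⟨u1, hu1⟩ := exists_q_eq hG.nd (by omega) (1 : F)
    -- a nonsingular vector orthogonal to u1, g u1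
    obtain ⟨u2, hu20, hu21, hu22⟩ : ∃ u2, Q u2 ≠ 0 ∧ polar Q u1 u2 = 0 ∧ polar Q (fn g u1) u2 = 0 := by
      by_contra hcon
      push Not at hcon
      set W : Submodule F (ι → F) := Submodule.span F {u1, fn g u1} with hW
      have hWd : finrank F W ≤ 2 := by
        classical
        have := finrank_span_finset_le_card (R := F) ({u1, fn g u1} : Finset (ι → F))
        rw [Finset.coe_insert, Finset.coe_singleton] at this
        exact this.trans Finset.card_le_two
      have hs : TS Q (perp Q W) := by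
        intro x hx
        by_contra hx0
        exact hcon x hx0 (hx _ (Submodule.subset_span (by simp))) (hx _ (Submodule.subset_span (by simp)))
      have h3 := hs.le_perp
      rw [perp_perp hG.nd] at h3
      have h4 := Submodule.finrank_mono h3
      have h5 := finrank_perp hG.nd W
      omega
    -- the quadratic extension
    have hfact : Fact (∀ r : F, r ^ 2 ≠ (lam : F) + 0 * r) := ⟨fun r hr => hl ⟨r, by
      rw [zero_mul, add_zero] at hr; rw [← hr, pow_two]⟩⟩
    have hfin : Finite (QuadraticAlgebra F (lam : F) 0) := Finite.of_equiv _ (QuadraticAlgebra.equivProd (lam : F) 0).symm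
    have hlam0 : (2 : F) * lam ≠ 0 := mul_ne_zero h2 lam.ne_zero
    let φ : (ι → F) → QuadraticAlgebra F (lam : F) 0 := fun u => ⟨Q u, polar Q u (fn g u) * ((2 : F) * (lam : F))⁻¹⟩
    have hφ1 : φ u1 ≠ 0 := by
      intro h
      have := congrArg QuadraticAlgebra.re h
      change Q u1 = 0 at this
      rw [hu1] at this
      exact one_ne_zero this
    have hφ2 : φ u2 ≠ 0 := by
      intro h
      exact hu20 (congrArg QuadraticAlgebra.re h)
    obtain ⟨x, y, hxy⟩ := exists_sum_sq hφ1 hφ2 1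
    have hre := congrArg QuadraticAlgebra.re hxy
    have him := congrArg QuadraticAlgebra.im hxy
    simp only [pow_two, QuadraticAlgebra.re_add, QuadraticAlgebra.im_add, QuadraticAlgebra.re_mul,
      QuadraticAlgebra.im_mul, QuadraticAlgebra.re_one, QuadraticAlgebra.im_one, φ, zero_mul, add_zero] at hre him
    -- orthogonality
    have o1 : polar Q u1 (fn g u2) = 0 := by rw [← hsa, hu22]
    have o2 : polar Q (fn g u1) (fn g u2) = 0 := by rw [hpol, hu21, mul_zero]
    refine ⟨x.re • u1 + x.im • fn g u1 + (y.re • u2 + y.im • fn g u2), ?_, ?_⟩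
    · have hp1 : polar Q u1 (fn g u1) * (2 * (lam : F))⁻¹ * (2 * lam) = polar Q u1 (fn g u1) := by
        rw [mul_assoc, inv_mul_cancel₀ hlam0, mul_one]
      have hp2 : polar Q u2 (fn g u2) * (2 * (lam : F))⁻¹ * (2 * lam) = polar Q u2 (fn g u2) := by
        rw [mul_assoc, inv_mul_cancel₀ hlam0, mul_one]
      simp only [qadd, qsmul, pal, par, psl, psr, hq, hu21, hu22, o1, o2]
      rw [← hp1, ← hp2, ← hre]
      ring
    · have hp1 : polar Q u1 (fn g u1) * (2 * (lam : F))⁻¹ * (2 * lam) = polar Q u1 (fn g u1) := by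
        rw [mul_assoc, inv_mul_cancel₀ hlam0, mul_one]
      have hp2 : polar Q u2 (fn g u2) * (2 * (lam : F))⁻¹ * (2 * lam) = polar Q u2 (fn g u2) := by
        rw [mul_assoc, inv_mul_cancel₀ hlam0, mul_one]
      have e1 : polar Q (fn g u1) u1 = polar Q u1 (fn g u1) := pc Q _ _
      have e2 : polar Q (fn g u2) u2 = polar Q u2 (fn g u2) := pc Q _ _
      have e3 : polar Q u2 u1 = 0 := by rw [pc]; exact hu21
      have e4 : polar Q u2 (fn g u1) = 0 := by rw [pc]; exact hu22
      have e5 : polar Q (fn g u2) u1 = 0 := by rw [pc]; exact o1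
      have e6 : polar Q (fn g u2) (fn g u1) = 0 := by rw [pc]; exact o2
      have s1 : polar Q (fn g u1) (fn g u1) = 2 * (lam * Q u1) := by rw [pself, hq]
      have s2 : polar Q (fn g u2) (fn g u2) = 2 * (lam * Q u2) := by rw [pself, hq]
      have s3 : polar Q u1 u1 = 2 * Q u1 := pself Q _
      have s4 : polar Q u2 u2 = 2 * Q u2 := pself Q _
      simp only [fn_add, fn_smul, hgg, pal, par, psl, psr, hu21, hu22, o1, o2, e1, e2, e3, e4, e5, e6, s1, s2, s3, s4]
      linear_combination (2 * (lam : F)) * him - (x.re * x.re + lam * x.im * x.im) * hp1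
        - (y.re * y.re + lam * y.im * y.im) * hp2
  have hu0 : Q u ≠ 0 := by rw [hu1]; exact one_ne_zero
  have hgu0 : Q (fn g u) ≠ 0 := by rw [hq, hu1, mul_one]; exact lam.ne_zero
  refine ⟨refl Q u hu0 * refl Q (fn g u) hgu0, ?_, ?_, ?_⟩
  · rw [map_mul, parityHom_refl, parityHom_refl]; rfl
  · rw [map_mul, spinHom_refl, spinHom_refl, hq, hu1, mul_one, sqc, if_pos IsSquare.one, sqc, if_neg hl]; rfl
  · refine lin_ext' fun v => ?_
    change fn g ((refl Q u hu0 : (ι → F) ≃ₗ[F] (ι → F)) ((refl Q (fn g u) hgu0 : (ι → F) ≃ₗ[F] (ι → F)) v)) =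
      (refl Q u hu0 : (ι → F) ≃ₗ[F] (ι → F)) ((refl Q (fn g u) hgu0 : (ι → F) ≃ₗ[F] (ι → F)) (fn g v))
    have hsub : ∀ x y, fn g (x - y) = fn g x - fn g y := by
      intro x y
      rw [sub_eq_add_neg, fn_add, ← neg_one_smul F y, fn_smul, neg_one_smul, ← sub_eq_add_neg]
    have hu2' : polar Q (fn g u) u = 0 := by rw [pc]; exact hu2
    rw [refl_apply, refl_apply, refl_apply, refl_apply]
    simp only [hsub, fn_smul, hgg, pdl, psl, hsa, hq, hu1, hu2, hu2', mul_one, inv_one, one_mul, mul_zero, sub_zero,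
      psr]
    have hl0 := lam.ne_zero
    rw [smul_smul, inv_mul_cancel_left₀ hl0, mul_right_comm, inv_mul_cancel₀ hl0, one_mul]
    module

end mat

end Cfsg.Agent.SimO
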