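import Cfsg.Agent.SimO.Graph3
import Cfsg.Agent.SimO.Minus

/-!
Involutory graph automorphisms of the plus and minus type groups: class splitting.
-/

set_option autoImplicit false

namespace Cfsg.Agent.SimO

open QuadraticMap Module Cfsg.Agent.ClassO Cfsg.Agent.AutO
open Cfsg.Agent.Orth hiding two_ne_zero_of_odd map_mul

/-- transport of the class count along an isomorphism -/
theorem split_transport {X B : Type*} [Group X] [Group B] (e : X ≃* B) {H K : Subgroup X} {H' K' : Subgroup B}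
    (hH : ∀ x, x ∈ H ↔ e x ∈ H') (hK : ∀ x, x ∈ K ↔ e x ∈ K') (x : X) :
    Cfsg.splitClassCount H K x = Cfsg.splitClassCount H' K' (e x) := by
  have key : ∀ {A : Subgroup X} {A' : Subgroup B}, (∀ x, x ∈ A ↔ e x ∈ A') → ∀ y z : X,
      Cfsg.IsConjUnder A y z ↔ Cfsg.IsConjUnder A' (e y) (e z) := by
    intro A A' hA y z
    constructor
    · rintro ⟨h, hh, rfl⟩
      exact ⟨e h, (hA h).1 hh, by rw [map_mul, map_mul, map_inv]⟩
    · rintro ⟨h, hh, hz⟩
      obtain ⟨h, rfl⟩ := e.surjective h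
      refine ⟨h, (hA h).2 hh, e.injective ?_⟩
      rw [hz, map_mul, map_mul, map_inv]
  unfold Cfsg.splitClassCount
  refine Nat.card_congr (Quot.congr (e.toEquiv.subtypeEquiv fun y => key hH x y) ?_)
  intro y z
  exact key hK y.1 z.1

section mat
variable {F : Type*} [Field F] {ι : Type} [Fintype ι] [DecidableEq ι] {Q : QuadraticForm F (ι → F)}
  [Fintype F] [hG : AutO.Good Q] {ε : LinS Q →* ℤˣ}

theorem odd_fixM (h2 : (2 : F) ≠ 0) {k : OGrp Q} (hk : k * k = 1) (hpar : parityHom hG.nd hG.rg k = -1) :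
    Odd (finrank F (fixM (om k))) := by
  have h1 := det_fix (om k) h2 (om_invol hk)
  have h3 := det_parity hG.nd hG.rg k
  rw [hpar] at h3
  by_contra hodd
  have hev := Nat.not_odd_iff_even.1 hodd
  rw [hev.neg_one_pow] at h1
  apply h2
  have h4 : (1 : F) = -1 := by
    refine h1.symm.trans (h3.trans ?_)
    simp
  linear_combination h4

/-- in dimension divisible by four the inner-diagonal centraliser of a graph involution has square multipliers -/
theorem chi_of_comm (h2 : (2 : F) ≠ 0) {n : ℕ} (hn : Fintype.card ι = 2 * n) (hn2 : Even n)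
    {k : OGrp Q} (hk : k * k = 1) (hpar : parityHom hG.nd hG.rg k = -1) {l : LinS Q}
    (h : cL Q l * cL Q (ofL Q k) = cL Q (ofL Q k) * cL Q l) : chi (exists_q (Q := Q)) l = 1 := by
  obtain ⟨t, ht⟩ := (comm_iff _ _).1 h
  have hod := odd_fixM h2 hk hpar
  have hfin : finrank F (ι → F) = 2 * n := by rw [finrank_fintype_fun_eq_card, hn]
  have hsum := finrank_fix (om k) h2 (om_invol hk)
  have hneg : ∀ v : ι → F, fn l (-v) = - fn l v := by
    intro v; rw [← neg_one_smul F v, fn_smul, neg_one_smul]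
  have hc : ∀ v, fn l (om k v) = (t : F) • om k (fn l v) := fun v => congrArg (fun x => fn x v) ht
  rcases comm_sign ht with rfl | rfl
  · -- the negated space is stable
    have hW : ∀ v ∈ fixM (om k), lm l v ∈ fixM (om k) := by
      intro v hv
      rw [mem_fixM] at hv ⊢
      have h3 := hc v
      rw [hv, hneg, Units.val_one, one_smul] at h3
      exact h3.symm
    let L : fixM (om k) →ₗ[F] fixM (om k) := (lm l).restrict hW
    have h3 : ∀ v, (Q.comp (fixM (om k)).subtype) (L v) =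
        (mu (exists_q (Q := Q)) l : F) * (Q.comp (fixM (om k)).subtype) v := fun v => fn_q l v
    have h4 := det_sq_of_similar (restrict_nondeg (nd_fixM hG.nd h2 hk)) L h3
    obtain ⟨d, hd⟩ := hod
    rw [hd] at h4
    rw [chi_apply, sqc, if_pos]
    have hmu0 := (mu (exists_q (Q := Q)) l).ne_zero
    refine ⟨LinearMap.det L * ((mu (exists_q (Q := Q)) l : F) ^ d)⁻¹, ?_⟩
    have h5 : (mu (exists_q (Q := Q)) l : F) ^ d ≠ 0 := pow_ne_zero _ hmu0
    field_simp
    rw [h4]
    ring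
  · exfalso
    have h1 : (fixP (om k)).map (lm l) ≤ fixM (om k) := by
      rintro _ ⟨v, hv, rfl⟩
      have hv' := (mem_fixP _).1 hv
      rw [mem_fixM]
      have h3 := hc v
      rw [hv', Units.val_neg, Units.val_one, neg_one_smul] at h3
      have h4 : om k (fn l v) = - fn l v := (neg_eq_iff_eq_neg.2 h3).symm ▸ rfl
      exact h4
    have h2' : (fixM (om k)).map (lm l) ≤ fixP (om k) := by
      rintro _ ⟨v, hv, rfl⟩
      have hv' := (mem_fixM _).1 hv
      rw [mem_fixP]
      have h3 := hc v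
      rw [hv', hneg, Units.val_neg, Units.val_one, neg_one_smul, neg_inj] at h3
      exact h3.symm
    have h5 := Submodule.finrank_mono h1
    have h6 := Submodule.finrank_mono h2'
    rw [LinearEquiv.finrank_map_eq] at h5 h6
    obtain ⟨d, hd⟩ := hod
    obtain ⟨e, he⟩ := hn2
    omega

theorem count_of_graph (hε : IsEps ε) {n : ℕ} (hn : Fintype.card ι = 2 * n) (hodd : Odd (Fintype.card F))
    (hχ : ∃ l : LinS Q, chi (exists_q (Q := Q)) l = -1)
    (hdet : ∀ l, dL Q l = mu (exists_q (Q := Q)) l ^ n * sgn F (ε l))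
    (hn2 : spinHom hG.nd hG.rg (negO Q) = 1) {g : LinS Q} (hg : ε g = -1) (hg2 : cL Q g * cL Q g = 1) :
    Cfsg.splitClassCount (PI ε) (Cfsg.Inn (T Q)) (cL Q g) = 2 := by
  have h2 : (2 : F) ≠ 0 := ClassO.two_ne_zero_of_odd hodd
  obtain ⟨lam, hlam⟩ := exists_lam hg2
  rcases graph_cases hε hn h2 hdet hlam hg with ⟨t, k, rfl, hk, hkp⟩ | ⟨hmu, hsq, -⟩
  · obtain ⟨z, hz1, hz2, hkz⟩ := exists_z_invol hodd hk
    refine split_eq_two hε hχ hn2 hg hz1 hz2 ?_
    rw [← map_mul, ← map_mul, mul_assoc, ← map_mul, hkz, ← mul_assoc, ← sclL_comm, mul_assoc, ← map_mul]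
  · obtain ⟨z, hz1, hz2, hgz⟩ := exists_z_ns hodd hlam hmu hsq
    refine split_eq_two hε hχ hn2 hg hz1 hz2 ?_
    rw [← map_mul, ← map_mul, hgz]

theorem count_of_graph' (hε : IsEps ε) {n : ℕ} (hn : Fintype.card ι = 2 * n) (hn2 : Even n) (hodd : Odd (Fintype.card F))
    (hχ : ∃ l : LinS Q, chi (exists_q (Q := Q)) l = -1)
    (hdet : ∀ l, dL Q l = mu (exists_q (Q := Q)) l ^ n * sgn F (ε l))
    (hp1 : parityHom hG.nd hG.rg (negO Q) = 1)
    (hs1 : spinHom hG.nd hG.rg (negO Q) = -1) {g : LinS Q} (hg : ε g = -1) (hg2 : cL Q g * cL Q g = 1) :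
    Cfsg.splitClassCount (PI ε) (Cfsg.Inn (T Q)) (cL Q g) = 2 := by
  have h2 : (2 : F) ≠ 0 := ClassO.two_ne_zero_of_odd hodd
  obtain ⟨lam, hlam⟩ := exists_lam hg2
  rcases graph_cases hε hn h2 hdet hlam hg with ⟨t, k, rfl, hk, hkp⟩ | ⟨-, -, h⟩
  · refine split_two' hε hχ hp1 hs1 fun l _ hl => ?_
    refine chi_of_comm h2 hn hn2 hk hkp ?_
    have h3 : cL Q (sclL Q t * ofL Q k) = cL Q (ofL Q k) := by
      rw [map_mul, (cL_eq_one_iff _).2 ⟨t, rfl⟩, one_mul]
    rwa [h3] at hl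
  · exact absurd hn2 (Nat.not_even_iff_odd.2 h)

end mat

end Cfsg.Agent.SimO
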