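import Cfsg.Agent.AutO.Std
import Cfsg.Agent.OAut.OutG
import Cfsg.Agent.OAut.OutC

/-!
The group of linear similarities, its characters, and the images in `Aut(PΩ)` of the similarity
group, the special orthogonal group and the kernel of a parity character.
-/

set_option autoImplicit false

namespace Cfsg.Agent.SimO

open QuadraticMap Module Cfsg.Agent.ClassO Cfsg.Agent.AutO
open Cfsg.Agent.Orth hiding two_ne_zero_of_odd map_mul

/-! ### Abstract group theory -/

section abs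

/-- Descending a homomorphism to the image. -/
theorem descend {L A X : Type*} [Group L] [Group A] [Group X] (π : L →* A) (P N : Subgroup A)
    (hP : π.range = P) (ψ : L →* X) (hψ : Function.Surjective ψ) (hN : ∀ l, π l ∈ N ↔ ψ l = 1) :
    ∃ φ : ↥P →* X, Function.Surjective φ ∧ φ.ker = N.subgroupOf P := by
  subst hP
  have hker : ∀ l, π l = 1 → ψ l = 1 := fun l hl => (hN l).1 (by rw [hl]; exact N.one_mem)
  let π' : L →* ↥π.range := π.rangeRestrict
  have hπ' : Function.Surjective π' := π.rangeRestrict_surjective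
  have hle : π'.ker ≤ ψ.ker := fun l hl => hker l (congrArg Subtype.val (hl : π' l = 1))
  have hφ : ∀ l, (MonoidHom.liftOfSurjective π' hπ' ⟨ψ, hle⟩) (π' l) = ψ l := fun l =>
    MonoidHom.liftOfRightInverse_comp_apply π' _ (Function.rightInverse_surjInv hπ') ⟨ψ, hle⟩ l
  refine ⟨MonoidHom.liftOfSurjective π' hπ' ⟨ψ, hle⟩, ?_, ?_⟩
  · intro x
    obtain ⟨l, rfl⟩ := hψ x
    exact ⟨π' l, hφ l⟩
  · ext x
    obtain ⟨l, rfl⟩ := hπ' x
    rw [MonoidHom.mem_ker, hφ, Subgroup.mem_subgroupOf]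
    exact (hN l).symm

/-- The same from an isomorphism of the quotient. -/
theorem phi_of_equiv {A Y : Type*} [Group A] [Group Y] (P I : Subgroup A) [hI : I.Normal]
    (e : ↥(P.map (QuotientGroup.mk' I)) ≃* Y) :
    ∃ φ : ↥P →* Y, Function.Surjective φ ∧ φ.ker = I.subgroupOf P := by
  let θ : ↥P →* ↥(P.map (QuotientGroup.mk' I)) := (QuotientGroup.mk' I).subgroupMap P
  have hθ : Function.Surjective θ := (QuotientGroup.mk' I).subgroupMap_surjective P
  refine ⟨e.toMonoidHom.comp θ, e.surjective.comp hθ, ?_⟩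
  ext x
  rw [MonoidHom.mem_ker, Subgroup.mem_subgroupOf]
  change e (θ x) = 1 ↔ _
  rw [EmbeddingLike.map_eq_one_iff]
  constructor
  · intro h
    exact (QuotientGroup.eq_one_iff _).1 (congrArg Subtype.val h)
  · intro h
    exact Subtype.ext ((QuotientGroup.eq_one_iff _).2 h)

/-- Relative index from a surjection. -/
theorem relIndex_of_phi {A X : Type*} [Group A] [Group X] {P N : Subgroup A}
    (h : ∃ φ : ↥P →* X, Function.Surjective φ ∧ φ.ker = N.subgroupOf P) : N.relIndex P = Nat.card X := by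
  obtain ⟨φ, h1, h2⟩ := h
  rw [Subgroup.relIndex, ← h2, Subgroup.index_ker]
  rw [MonoidHom.range_eq_top.2 h1]
  exact Nat.card_congr Subgroup.topEquiv.toEquiv

/-- Order of the image in the quotient. -/
theorem card_map_mk {A : Type*} [Group A] (P I : Subgroup A) [hI : I.Normal] :
    Nat.card ↥(P.map (QuotientGroup.mk' I)) = I.relIndex P :=
  (relIndex_of_phi (phi_of_equiv P I (MulEquiv.refl _))).symm

/-- Transport of the conclusion along an isomorphism. -/
theorem phi_transport {A B X : Type*} [Group A] [Group B] [Group X] (e : A ≃* B) {P N : Subgroup A}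
    {P' N' : Subgroup B} (hP : ∀ a, a ∈ P ↔ e a ∈ P') (hN : ∀ a, a ∈ N ↔ e a ∈ N')
    (h : ∃ φ : ↥P' →* X, Function.Surjective φ ∧ φ.ker = N'.subgroupOf P') :
    ∃ φ : ↥P →* X, Function.Surjective φ ∧ φ.ker = N.subgroupOf P := by
  obtain ⟨φ, h1, h2⟩ := h
  let θ : ↥P →* ↥P' :=
    { toFun := fun x => ⟨e x, (hP x).1 x.2⟩
      map_one' := Subtype.ext (map_one e)
      map_mul' := fun x y => Subtype.ext (map_mul e _ _) }
  have hθ : Function.Surjective θ := by
    rintro ⟨y, hy⟩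
    refine ⟨⟨e.symm y, (hP _).2 (by rwa [MulEquiv.apply_symm_apply])⟩, Subtype.ext (e.apply_symm_apply y)⟩
  refine ⟨φ.comp θ, h1.comp hθ, ?_⟩
  ext x
  rw [MonoidHom.mem_ker, MonoidHom.comp_apply, ← MonoidHom.mem_ker, h2, Subgroup.mem_subgroupOf,
    Subgroup.mem_subgroupOf]
  exact (hN x).symm

theorem relIndex_transport {A B : Type*} [Group A] [Group B] (e : A ≃* B) {P N : Subgroup A}
    {P' N' : Subgroup B} (hP : ∀ a, a ∈ P ↔ e a ∈ P') (hN : ∀ a, a ∈ N ↔ e a ∈ N') :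
    N.relIndex P = N'.relIndex P' := by
  have h1 : P' = P.map e.toMonoidHom := by
    ext y
    rw [Subgroup.mem_map_equiv, hP, MulEquiv.apply_symm_apply]
  have h2 : N' = N.map e.toMonoidHom := by
    ext y
    rw [Subgroup.mem_map_equiv, hN, MulEquiv.apply_symm_apply]
  rw [h1, h2, Subgroup.relIndex_map_map_of_injective _ _ e.injective]

/-- dropping a trivial factor -/
def prodUnit (X : Type*) [Group X] : X × Unit ≃* X where
  toFun := Prod.fst
  invFun := fun x => (x, 1)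
  left_inv := fun _ => rfl
  right_inv := fun _ => rfl
  map_mul' := fun _ _ => rfl

/-- `Multiplicative` of a product -/
def multProd (A B : Type*) [AddGroup A] [AddGroup B] :
    Multiplicative A × Multiplicative B ≃* Multiplicative (A × B) where
  toFun := fun x => Multiplicative.ofAdd (Multiplicative.toAdd x.1, Multiplicative.toAdd x.2)
  invFun := fun x => (Multiplicative.ofAdd (Multiplicative.toAdd x).1,
    Multiplicative.ofAdd (Multiplicative.toAdd x).2)
  left_inv := fun _ => rfl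
  right_inv := fun _ => rfl
  map_mul' := fun _ _ => rfl

/-- Recognition of the dihedral group of order eight. -/
theorem recog_D8' {X : Type*} [Group X] [Finite X] {r s : X} (hr4 : r ^ 4 = 1) (hs : s * s = 1)
    (hsr : s * r * s⁻¹ = r⁻¹) (hr2 : r ^ 2 ≠ 1) (hcard : Nat.card X = 8) :
    Nonempty (X ≃* DihedralGroup 4) := by
  obtain ⟨e⟩ := OAut.recog_D8_aux (R := Unit) (φ := 1) (L := ⊤) hr4 hs hsr trivial trivial
    (fun σ => Commute.one_left _) (fun σ => Commute.one_left _) (fun σ _ => rfl) hr2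
    (by rw [hcard]; simp)
  exact ⟨e.trans (prodUnit _)⟩

/-- Recognition of the Klein four group. -/
theorem recog_V4' {X : Type*} [Group X] [Finite X] {a b : X} (ha : a * a = 1) (hb : b * b = 1)
    (hab : Commute a b) (ha1 : a ≠ 1) (hb1 : b ≠ 1) (hab1 : a * b ≠ 1) (hcard : Nat.card X = 4) :
    Nonempty (X ≃* Multiplicative (ZMod 2 × ZMod 2)) := by
  obtain ⟨e⟩ := OAut.recog_V4 (R := Unit) (φ := 1) (L := ⊤) ha hb hab trivial trivial
    (fun σ => Commute.one_left _) (fun σ => Commute.one_left _) (fun σ _ => rfl) ha1 hb1 hab1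
    (by rw [hcard]; simp)
  exact ⟨(e.trans (prodUnit _)).trans (multProd _ _)⟩

/-- Recognition of the cyclic group of order four. -/
theorem recog_C4 {X : Type*} [Group X] [Finite X] {r : X} (hr2 : r ^ 2 ≠ 1) (hcard : Nat.card X = 4) :
    Nonempty (X ≃* Multiplicative (ZMod 4)) := by
  have h1 : orderOf r ∣ 4 := by rw [← hcard]; exact orderOf_dvd_natCard r
  have h2 : orderOf r = 4 := by
    have h3 : ¬ orderOf r ∣ 2 := fun h => hr2 (orderOf_dvd_iff_pow_eq_one.1 h)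
    have h4 : orderOf r ≤ 4 := Nat.le_of_dvd (by norm_num) h1
    interval_cases h : orderOf r <;> simp_all
  have hc : IsCyclic X := isCyclic_of_orderOf_eq_card r (by rw [h2, hcard])
  exact ⟨mulEquivOfCyclicCardEq (by rw [hcard]; simp)⟩

theorem recog_C2' {X : Type*} [Group X] [Finite X] (hcard : Nat.card X = 2) :
    Nonempty (X ≃* Multiplicative (ZMod 2)) := by
  have hc : IsCyclic X := isCyclic_of_prime_card (p := 2) hcard
  exact ⟨mulEquivOfCyclicCardEq (by rw [hcard]; simp)⟩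

/-- Signs as `ZMod 2`. -/
theorem sgn_equiv : Nonempty (ℤˣ ≃* Multiplicative (ZMod 2)) := by
  have h : Nat.card ℤˣ = 2 := by rw [Nat.card_eq_fintype_card]; rfl
  exact recog_C2' h

theorem sgn2_equiv : Nonempty (ℤˣ × ℤˣ ≃* Multiplicative (ZMod 2 × ZMod 2)) := by
  obtain ⟨e⟩ := sgn_equiv
  exact ⟨(e.prodCongr e).trans (multProd _ _)⟩

end abs

/-! ### Linear similarities -/

section gen
variable {F V : Type*} [Field F] [AddCommGroup V] [Module F V] {Q : QuadraticForm F V}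

theorem IsSemi1.mul {f g : Equiv.Perm V} {c d : Fˣ} (hf : IsSemi Q f 1 c) (hg : IsSemi Q g 1 d) :
    IsSemi Q (f * g) 1 (c * d) := by
  have h := hf.mul hg
  rwa [one_mul] at h

theorem IsSemi1.inv {f : Equiv.Perm V} {c : Fˣ} (hf : IsSemi Q f 1 c) : IsSemi Q (f⁻¹ : Equiv.Perm V) 1 c⁻¹ := by
  have h := hf.inv
  rwa [inv_one] at h

/-- the group of linear similarities -/
def LinS (Q : QuadraticForm F V) : Subgroup (GamO Q) where
  carrier := {f | ∃ c : Fˣ, IsSemi Q (f : Equiv.Perm V) 1 c}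
  one_mem' := ⟨1, IsSemi.one Q⟩
  mul_mem' := by
    rintro f g ⟨c, hf⟩ ⟨d, hg⟩
    exact ⟨_, IsSemi1.mul hf hg⟩
  inv_mem' := by
    rintro f ⟨c, hf⟩
    exact ⟨_, IsSemi1.inv hf⟩

/-- isometries as linear similarities -/
def ofL (Q : QuadraticForm F V) : OGrp Q →* LinS Q where
  toFun g := ⟨ofO Q g, 1, isSemi_ofO g⟩
  map_one' := Subtype.ext (map_one _)
  map_mul' g h := Subtype.ext (map_mul _ _ _)

theorem coe_ofL (g : OGrp Q) : ((ofL Q g : LinS Q) : GamO Q) = ofO Q g := rfl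

/-- scalars as linear similarities -/
def sclL (Q : QuadraticForm F V) (c : Fˣ) : LinS Q := ⟨scl Q c, c ^ 2, isSemi_scl c⟩

theorem coe_sclL (c : Fˣ) : ((sclL Q c : LinS Q) : GamO Q) = scl Q c := rfl

/-- action on `PΩ` -/
def cL (Q : QuadraticForm F V) : LinS Q →* MulAut (T Q) := (cO Q).comp (LinS Q).subtype

theorem cL_apply (l : LinS Q) : cL Q l = cO Q (l : GamO Q) := rfl

theorem conj_ofL (l : LinS Q) (g : OGrp Q) : l * ofL Q g * l⁻¹ = ofL Q (conjO Q l g) :=
  Subtype.ext (conj_ofO _ _)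

theorem semi1_uniq {f : Equiv.Perm V} {c d : Fˣ} (h1 : IsSemi Q f 1 c) (h2 : IsSemi Q f 1 d) {v : V}
    (hv : Q v ≠ 0) : c = d := by
  have h3 := (h1.q v).symm.trans (h2.q v)
  exact Units.ext (mul_right_cancel₀ (show (1 : RingAut F) (Q v) ≠ 0 from hv) h3)

/-- the multiplier -/
noncomputable def mu (hv : ∃ v, Q v ≠ 0) : LinS Q →* Fˣ where
  toFun l := l.2.choose
  map_one' := by
    obtain ⟨v, hv⟩ := hv
    exact semi1_uniq (1 : LinS Q).2.choose_spec (IsSemi.one Q) hv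
  map_mul' l l' := by
    obtain ⟨v, hv⟩ := hv
    exact semi1_uniq (l * l').2.choose_spec (IsSemi1.mul l.2.choose_spec l'.2.choose_spec) hv

theorem mu_eq (hv : ∃ v, Q v ≠ 0) {l : LinS Q} {c : Fˣ} (h : IsSemi Q ((l : GamO Q) : Equiv.Perm V) 1 c) :
    mu hv l = c := by
  obtain ⟨v, hv'⟩ := id hv
  exact semi1_uniq l.2.choose_spec h hv'

theorem mu_spec (hv : ∃ v, Q v ≠ 0) (l : LinS Q) : IsSemi Q ((l : GamO Q) : Equiv.Perm V) 1 (mu hv l) :=
  l.2.choose_spec

/-- square class of the multiplier -/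
noncomputable def chi [Fintype F] (hv : ∃ v, Q v ≠ 0) : LinS Q →* ℤˣ := (OAut.sqU F).comp (mu hv)

theorem chi_apply [Fintype F] (hv : ∃ v, Q v ≠ 0) (l : LinS Q) : chi hv l = sqc ((mu hv l : Fˣ) : F) := rfl

end gen

/-! ### The characters and the images -/

section img
variable {F V : Type*} [Field F] [Fintype F] [AddCommGroup V] [Module F V] {Q : QuadraticForm F V}
  [FiniteDimensional F V] [hG : AutO.Good Q]

theorem exists_q : ∃ v, Q v ≠ 0 := by
  obtain ⟨e, f, hyp⟩ := hG.hyp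
  refine ⟨e 0 + f 0, ?_⟩
  rw [qadd, hyp.e0, hyp.f0, hyp.ef, if_pos rfl, zero_add, zero_add]
  exact one_ne_zero

theorem cL_eq_one_iff (l : LinS Q) : cL Q l = 1 ↔ ∃ c : Fˣ, l = sclL Q c := by
  rw [cL_apply, cO_eq_one_iff]
  constructor
  · rintro ⟨c, h⟩; exact ⟨c, Subtype.ext h⟩
  · rintro ⟨c, h⟩; exact ⟨c, congrArg Subtype.val h⟩

theorem chi_eq_one_iff (l : LinS Q) : chi (exists_q (Q := Q)) l = 1 ↔ ∃ (c : Fˣ) (g : OGrp Q), l = sclL Q c * ofL Q g := by
  rw [chi_apply]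
  constructor
  · intro h
    have h1 : IsSquare ((mu (exists_q (Q := Q)) l : Fˣ) : F) := by
      by_contra h2
      rw [sqc, if_neg h2] at h
      exact absurd h (by decide)
    obtain ⟨d, g, h2⟩ := exists_scl_ofO (mu_spec exists_q l) h1
    exact ⟨d, g, Subtype.ext h2⟩
  · rintro ⟨c, g, rfl⟩
    have h1 : mu (exists_q (Q := Q)) (sclL Q c * ofL Q g) = c ^ 2 := by
      have := IsSemi1.mul (isSemi_scl (Q := Q) c) (isSemi_ofO g)
      rw [mul_one] at this
      exact mu_eq _ this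
    rw [h1, sqc, if_pos ⟨c, by rw [Units.val_pow_eq_pow_val, pow_two]⟩]

theorem cL_mem_inn_iff (l : LinS Q) : cL Q l ∈ Cfsg.Inn (T Q) ↔ ∃ (c : Fˣ) (g : Om Q), l = sclL Q c * ofL Q g := by
  have h1 : cL Q l ∈ Cfsg.Inn (T Q) ↔ oP Q (l : GamO Q) = 1 := (QuotientGroup.eq_one_iff _).symm
  rw [h1, oP_eq_one_iff]
  constructor
  · rintro ⟨c, g, h⟩; exact ⟨c, g, Subtype.ext h⟩
  · rintro ⟨c, g, h⟩; exact ⟨c, g, congrArg Subtype.val h⟩

/-- A parity character on the group of linear similarities. -/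
structure IsEps (ε : LinS Q →* ℤˣ) : Prop where
  isom : ∀ g : OGrp Q, ε (ofL Q g) = parityHom hG.nd hG.rg g
  scl : ∀ c : Fˣ, ε (sclL Q c) = 1

/-- image of the group of similarities -/
def PG (Q : QuadraticForm F V) : Subgroup (MulAut (T Q)) := (cL Q).range

/-- image of the special orthogonal group -/
noncomputable def PS (Q : QuadraticForm F V) [hG : AutO.Good Q] : Subgroup (MulAut (T Q)) :=
  (parityHom hG.nd hG.rg).ker.map ((cL Q).comp (ofL Q))

/-- image of the group of proper similarities -/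
def PI {Q : QuadraticForm F V} (ε : LinS Q →* ℤˣ) : Subgroup (MulAut (T Q)) := ε.ker.map (cL Q)

variable {ε : LinS Q →* ℤˣ} (hε : IsEps ε)

include hε

theorem mem_PS_iff (l : LinS Q) : cL Q l ∈ PS Q ↔ chi (exists_q (Q := Q)) l = 1 ∧ ε l = 1 := by
  constructor
  · rintro ⟨g, hg, h⟩
    have h1 : cL Q (l * (ofL Q g)⁻¹) = 1 := by
      rw [map_mul, map_inv, mul_inv_eq_one]; exact h.symm
    obtain ⟨c, hc⟩ := (cL_eq_one_iff _).1 h1
    have h2 : l = sclL Q c * ofL Q g := by rw [← hc, inv_mul_cancel_right]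
    refine ⟨(chi_eq_one_iff l).2 ⟨c, g, h2⟩, ?_⟩
    rw [h2, map_mul, hε.scl, hε.isom, one_mul]
    exact hg
  · rintro ⟨h1, h2⟩
    obtain ⟨c, g, rfl⟩ := (chi_eq_one_iff l).1 h1
    rw [map_mul, hε.scl, hε.isom, one_mul] at h2
    refine ⟨g, h2, ?_⟩
    rw [map_mul, (cL_eq_one_iff _).2 ⟨c, rfl⟩, one_mul]
    rfl

theorem mem_PI_iff (l : LinS Q) : cL Q l ∈ PI ε ↔ ε l = 1 := by
  constructor
  · rintro ⟨l', hl', h⟩
    have h1 : cL Q (l * l'⁻¹) = 1 := by
      rw [map_mul, map_inv, mul_inv_eq_one]; exact h.symm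
    obtain ⟨c, hc⟩ := (cL_eq_one_iff _).1 h1
    have h2 : l = sclL Q c * l' := by rw [← hc, inv_mul_cancel_right]
    rw [h2, map_mul, hε.scl, one_mul]
    exact hl'
  · intro h
    exact ⟨l, h, rfl⟩

theorem PI_le : PI ε ≤ PG Q := by
  rintro _ ⟨l, -, rfl⟩
  exact ⟨l, rfl⟩

theorem PS_le_PI : PS Q ≤ PI ε := by
  rintro _ ⟨g, hg, rfl⟩
  refine ⟨ofL Q g, ?_, rfl⟩
  change ε (ofL Q g) = 1
  rw [hε.isom]; exact hg

omit hε in
theorem inn_le_PS : Cfsg.Inn (T Q) ≤ PS Q := by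
  rintro _ ⟨x, rfl⟩
  obtain ⟨g, rfl⟩ := mk_surjective Q x
  refine ⟨(g : OGrp Q), ((mem_commutator_iff_homs hG.nd hG.rg _).1 g.2).1, ?_⟩
  exact cO_ofO g

omit hε in
theorem nontrivial_V (hV : 7 ≤ finrank F V) : Nontrivial V := Module.nontrivial_of_finrank_pos (R := F) (by omega)

omit hε in
/-- class in the outer automorphism group -/
def oL (Q : QuadraticForm F V) : LinS Q →* Cfsg.Out (T Q) := (QuotientGroup.mk' (Cfsg.Inn (T Q))).comp (cL Q)

omit hε in
theorem oL_eq_one_iff' (l : LinS Q) : oL Q l = 1 ↔ cL Q l ∈ Cfsg.Inn (T Q) := QuotientGroup.eq_one_iff _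

omit hε in
theorem oL_scl (c : Fˣ) : oL Q (sclL Q c) = 1 := by
  rw [oL_eq_one_iff', cL_mem_inn_iff]
  exact ⟨c, 1, by rw [Subgroup.coe_one, map_one, mul_one]⟩

omit hε in
theorem oL_of {g : OGrp Q} (h1 : parityHom hG.nd hG.rg g = 1) (h2 : spinHom hG.nd hG.rg g = 1) :
    oL Q (ofL Q g) = 1 := by
  obtain ⟨h, rfl⟩ := exists_om hG.nd hG.rg h1 h2
  exact oP_om h

omit hε in
theorem oL_congr {g g' : OGrp Q} (h1 : parityHom hG.nd hG.rg g = parityHom hG.nd hG.rg g')
    (h2 : spinHom hG.nd hG.rg g = spinHom hG.nd hG.rg g') : oL Q (ofL Q g) = oL Q (ofL Q g') := by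
  rw [← mul_inv_eq_one, ← map_inv, ← map_mul, ← map_inv, ← map_mul]
  apply oL_of
  · rw [map_mul, map_inv, h1, mul_inv_cancel]
  · rw [map_mul, map_inv, h2, mul_inv_cancel]

omit hε in
/-- minus one as an isometry -/
def negO (Q : QuadraticForm F V) : OGrp Q :=
  ⟨LinearEquiv.neg F, fun v => by
    change Q (-v) = _
    rw [QuadraticMap.map_neg]⟩

omit hε [Fintype F] [FiniteDimensional F V] hG in
theorem negO_apply (v : V) : (negO Q : V ≃ₗ[F] V) v = - v := rfl

omit hε in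
theorem oL_of_iff (hn1 : parityHom hG.nd hG.rg (negO Q) = 1) (hn2 : spinHom hG.nd hG.rg (negO Q) = 1) (g : OGrp Q) :
    oL Q (ofL Q g) = 1 ↔ parityHom hG.nd hG.rg g = 1 ∧ spinHom hG.nd hG.rg g = 1 := by
  constructor
  · intro h
    obtain ⟨c, hc, k, hk⟩ := (oP_ofO_eq_one_iff g).1 h
    obtain ⟨h3, h4⟩ := (mem_commutator_iff_homs hG.nd hG.rg (k : OGrp Q)).1 k.2
    rcases hc with rfl | rfl
    · have : g = k := OGrp_ext fun v => by rw [hk, one_smul]
      rw [this]; exact ⟨h3, h4⟩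
    · have : g = negO Q * k := OGrp_ext fun v => by rw [hk, neg_smul, one_smul]; rfl
      rw [this, map_mul, map_mul, hn1, hn2, h3, h4]; exact ⟨one_mul 1, one_mul 1⟩
  · rintro ⟨h1, h2⟩; exact oL_of h1 h2

omit hε in
theorem oL_all (hn1 : parityHom hG.nd hG.rg (negO Q) = 1) (hn2 : spinHom hG.nd hG.rg (negO Q) = -1) {g : OGrp Q}
    (hg : parityHom hG.nd hG.rg g = 1) : oL Q (ofL Q g) = 1 := by
  by_cases h : spinHom hG.nd hG.rg g = 1
  · exact oL_of hg h
  · have h0 : oL Q (ofL Q (negO Q)) = 1 := by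
      have : ofL Q (negO Q) = sclL Q (-1) := Subtype.ext (gam_ext fun v => by
        change -v = ((-1 : Fˣ) : F) • v
        rw [Units.val_neg, Units.val_one, neg_smul, one_smul])
      rw [this, oL_scl]
    have h1 : oL Q (ofL Q (negO Q * g)) = 1 := oL_of (by rw [map_mul, hn1, hg, one_mul]) (by
      rw [map_mul, hn2, units_int_ne_one h]; rfl)
    rwa [map_mul, map_mul, h0, one_mul] at h1

omit hε in
/-- existence of isometries with given invariants -/
theorem exists_refl_c (c : Fˣ) : ∃ (v : V) (hv : Q v ≠ 0), Q v = c := by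
  have hdim := hG.dim
  obtain ⟨v, hv⟩ := exists_q_eq hG.nd (by omega) (c : F)
  exact ⟨v, by rw [hv]; exact c.ne_zero, hv⟩

omit hε in
theorem exists_ns (hodd : Odd (Fintype.card F)) : ∃ c : Fˣ, sqc (c : F) = -1 := by
  obtain ⟨c, hc⟩ : ∃ c : F, ¬ IsSquare c := FiniteField.exists_nonsquare (by
    intro h
    have := ringChar.charP F
    rw [h] at this
    exact ClassO.two_ne_zero_of_odd hodd (by have := CharP.cast_eq_zero F 2; simpa using this))
  have hc0 : c ≠ 0 := by rintro rfl; exact hc IsSquare.zero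
  exact ⟨Units.mk0 c hc0, if_neg hc⟩

omit hε in
theorem exists_z (hodd : Odd (Fintype.card F)) : ∃ g : OGrp Q, parityHom hG.nd hG.rg g = 1 ∧ spinHom hG.nd hG.rg g = -1 := by
  obtain ⟨c, hc⟩ := exists_ns hodd
  obtain ⟨v, hv0, hv⟩ := exists_refl_c (Q := Q) 1
  obtain ⟨w, hw0, hw⟩ := exists_refl_c (Q := Q) c
  refine ⟨refl Q v hv0 * refl Q w hw0, ?_, ?_⟩
  · rw [map_mul, parityHom_refl, parityHom_refl]; rfl
  · rw [map_mul, spinHom_refl, spinHom_refl, hv, hw, hc, Units.val_one, sqc, if_pos IsSquare.one]; rfl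

theorem eps_refl {v : V} (hv : Q v ≠ 0) : ε (ofL Q (refl Q v hv)) = -1 := by
  rw [hε.isom, parityHom_refl]

omit hε in
theorem chi_ofL (g : OGrp Q) : chi (exists_q (Q := Q)) (ofL Q g) = 1 :=
  (chi_eq_one_iff _).2 ⟨1, g, by
    rw [show sclL Q (1 : Fˣ) = 1 from Subtype.ext (gam_ext fun v => by
      rw [coe_sclL, scl_apply, Units.val_one, one_smul]; rfl), one_mul]⟩

omit hε in
theorem chi_sclL (c : Fˣ) : chi (exists_q (Q := Q)) (sclL Q c) = 1 :=
  (chi_eq_one_iff _).2 ⟨c, 1, by rw [map_one, mul_one]⟩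

/-- **R1**: the Klein four quotient `PGO/PSO`. -/
theorem PG_mod_PS (hχ : ∃ l : LinS Q, chi (exists_q (Q := Q)) l = -1) :
    ∃ φ : ↥(PG Q) →* Multiplicative (ZMod 2 × ZMod 2), Function.Surjective φ ∧ φ.ker = (PS Q).subgroupOf (PG Q) := by
  obtain ⟨e⟩ := sgn2_equiv
  refine descend (cL Q) (PG Q) (PS Q) rfl
    (e.toMonoidHom.comp ((chi (exists_q (Q := Q))).prod ε)) ?_ ?_
  · refine e.surjective.comp ?_
    rintro ⟨a, b⟩
    obtain ⟨l, hl⟩ := hχ
    obtain ⟨v, hv0, hv⟩ := exists_refl_c (Q := Q) 1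
    have key : ∀ a : ℤˣ, ∃ l : LinS Q, chi (exists_q (Q := Q)) l = a := by
      intro a
      rcases Int.units_eq_one_or a with rfl | rfl
      · exact ⟨1, map_one _⟩
      · exact ⟨l, hl⟩
    obtain ⟨l, hl⟩ := key a
    by_cases h : ε l = b
    · exact ⟨l, Prod.ext hl h⟩
    · refine ⟨l * ofL Q (refl Q v hv0), Prod.ext ?_ ?_⟩
      · change chi (exists_q (Q := Q)) (l * ofL Q (refl Q v hv0)) = a
        rw [map_mul, hl, chi_ofL, mul_one]
      · change ε (l * ofL Q (refl Q v hv0)) = b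
        rw [map_mul, eps_refl hε]
        rcases Int.units_eq_one_or (ε l) with h1 | h1 <;> rcases Int.units_eq_one_or b with h2 | h2 <;>
          rw [h1, h2] at h ⊢ <;> first | rfl | exact absurd rfl h
  · intro l
    rw [mem_PS_iff hε]
    change _ ↔ e (chi (exists_q (Q := Q)) l, ε l) = 1
    rw [← Prod.mk_eq_one]
    exact (EmbeddingLike.map_eq_one_iff (f := e)).symm

/-- `Inndiag/PSO` -/
theorem PI_mod_PS (hχ : ∃ l : LinS Q, chi (exists_q (Q := Q)) l = -1) :
    ∃ φ : ↥(PI ε) →* ℤˣ, Function.Surjective φ ∧ φ.ker = (PS Q).subgroupOf (PI ε) := by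
  refine descend ((cL Q).comp ε.ker.subtype) (PI ε) (PS Q) ?_
    ((chi (exists_q (Q := Q))).comp ε.ker.subtype) ?_ ?_
  · rw [MonoidHom.range_comp, Subgroup.range_subtype]; rfl
  · intro a
    obtain ⟨l, hl⟩ := hχ
    obtain ⟨v, hv0, hv⟩ := exists_refl_c (Q := Q) 1
    rcases Int.units_eq_one_or a with rfl | rfl
    · exact ⟨1, map_one _⟩
    · rcases Int.units_eq_one_or (ε l) with h | h
      · exact ⟨⟨l, h⟩, hl⟩
      · refine ⟨⟨l * ofL Q (refl Q v hv0), ?_⟩, ?_⟩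
        · change ε (l * ofL Q (refl Q v hv0)) = 1
          rw [map_mul, h, eps_refl hε]; rfl
        · change chi (exists_q (Q := Q)) (l * ofL Q (refl Q v hv0)) = -1
          rw [map_mul, hl, chi_ofL, mul_one]
  · rintro ⟨l, hl⟩
    change cL Q l ∈ PS Q ↔ chi (exists_q (Q := Q)) l = 1
    rw [mem_PS_iff hε]
    exact ⟨fun h => h.1, fun h => ⟨h, hl⟩⟩

omit hε in
/-- **R2** -/
theorem PS_eq_inn (hn1 : parityHom hG.nd hG.rg (negO Q) = 1) (hn2 : spinHom hG.nd hG.rg (negO Q) = -1) :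
    PS Q = Cfsg.Inn (T Q) := by
  refine le_antisymm ?_ inn_le_PS
  rintro _ ⟨g, hg, rfl⟩
  exact (oL_eq_one_iff' _).1 (oL_all hn1 hn2 hg)

omit hε in
theorem PS_mod_inn (hodd : Odd (Fintype.card F)) (hn1 : parityHom hG.nd hG.rg (negO Q) = 1)
    (hn2 : spinHom hG.nd hG.rg (negO Q) = 1) :
    ∃ φ : ↥(PS Q) →* ℤˣ, Function.Surjective φ ∧ φ.ker = (Cfsg.Inn (T Q)).subgroupOf (PS Q) := by
  refine descend (((cL Q).comp (ofL Q)).comp (parityHom hG.nd hG.rg).ker.subtype) (PS Q) _ ?_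
    ((spinHom hG.nd hG.rg).comp (parityHom hG.nd hG.rg).ker.subtype) ?_ ?_
  · rw [MonoidHom.range_comp, Subgroup.range_subtype]; rfl
  · intro a
    rcases Int.units_eq_one_or a with rfl | rfl
    · exact ⟨1, map_one _⟩
    · obtain ⟨g, h1, h2⟩ := exists_z (Q := Q) hodd
      exact ⟨⟨g, h1⟩, h2⟩
  · rintro ⟨g, hg⟩
    change cL Q (ofL Q g) ∈ _ ↔ spinHom hG.nd hG.rg g = 1
    rw [← oL_eq_one_iff', oL_of_iff hn1 hn2]
    exact ⟨fun h => h.2, fun h => ⟨hg, h⟩⟩

omit hε in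
theorem card_sgn : Nat.card ℤˣ = 2 := by rw [Nat.card_eq_fintype_card]; rfl

omit hε in
theorem relIndex_PS (hodd : Odd (Fintype.card F)) (hn1 : parityHom hG.nd hG.rg (negO Q) = 1)
    (hn2 : spinHom hG.nd hG.rg (negO Q) = 1) : (Cfsg.Inn (T Q)).relIndex (PS Q) = 2 := by
  rw [relIndex_of_phi (PS_mod_inn hodd hn1 hn2), card_sgn]

end img

end Cfsg.Agent.SimO
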