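import Cfsg.Agent.SimO.Grp
import Cfsg.Agent.OAut.OutH

/-!
Structure of the images of the similarity group modulo the inner automorphisms.
-/

set_option autoImplicit false

namespace Cfsg.Agent.SimO

open QuadraticMap Module Cfsg.Agent.ClassO Cfsg.Agent.AutO
open Cfsg.Agent.Orth hiding two_ne_zero_of_odd map_mul

section img
variable {F V : Type*} [Field F] [Fintype F] [AddCommGroup V] [Module F V] {Q : QuadraticForm F V}
  [FiniteDimensional F V] [hG : AutO.Good Q]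
  {ε : LinS Q →* ℤˣ} (hε : IsEps ε)

/-- an element of the quotient -/
def cls (P : Subgroup (MulAut (T Q))) (l : LinS Q) (hl : cL Q l ∈ P) :
    ↥(P.map (QuotientGroup.mk' (Cfsg.Inn (T Q)))) := ⟨oL Q l, Subgroup.mem_map_of_mem _ hl⟩

/-- the square of a similarity -/
theorem sq_eq (l : LinS Q) : ∃ (c : Fˣ) (A : OGrp Q), l * l = sclL Q c * ofL Q A := by
  have h : chi (exists_q (Q := Q)) (l * l) = 1 := by
    rw [map_mul]
    rcases Int.units_eq_one_or (chi (exists_q (Q := Q)) l) with h | h <;> rw [h] <;> rfl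
  exact (chi_eq_one_iff _).1 h

include hε

theorem eps_sq {l : LinS Q} {c : Fˣ} {A : OGrp Q} (h : l * l = sclL Q c * ofL Q A) :
    parityHom hG.nd hG.rg A = 1 := by
  have h1 := congrArg ε h
  rw [map_mul, map_mul, hε.scl, hε.isom, one_mul] at h1
  rw [← h1]
  rcases Int.units_eq_one_or (ε l) with h | h <;> rw [h] <;> rfl

omit hε in
/-- conjugates of reflections -/
theorem conj_refl {l : LinS Q} (hl : chi (exists_q (Q := Q)) l = -1) {v : V} (hv : Q v ≠ 0) {z : OGrp Q}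
    (hz1 : parityHom hG.nd hG.rg z = 1) (hz2 : spinHom hG.nd hG.rg z = -1) :
    oL Q (ofL Q (refl Q v hv)) * oL Q l * (oL Q (ofL Q (refl Q v hv)))⁻¹ = oL Q l * oL Q (ofL Q z) := by
  have hsq : ¬ IsSquare ((mu (exists_q (Q := Q)) l : Fˣ) : F) := by
    intro h
    rw [chi_apply, sqc, if_pos h] at hl
    exact absurd hl (by decide)
  have h1 : oL Q (l⁻¹ * ofL Q (refl Q v hv) * l * (ofL Q (refl Q v hv))⁻¹) = oL Q (ofL Q z) := by
    have h2 : l⁻¹ * ofL Q (refl Q v hv) * l = ofL Q (conjO Q ((l⁻¹ : LinS Q) : GamO Q) (refl Q v hv)) := by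
      rw [← conj_ofL, inv_inv]
    rw [h2, ← map_inv, ← map_mul]
    apply oL_congr
    · rw [map_mul, map_inv, parity_conj, mul_inv_cancel, hz1]
    · have h3 : IsSemi Q (((l⁻¹ : LinS Q) : GamO Q) : Equiv.Perm V) 1 (mu (exists_q (Q := Q)) l)⁻¹ :=
        IsSemi1.inv (mu_spec exists_q l)
      have h4 : ¬ IsSquare (((mu (exists_q (Q := Q)) l)⁻¹ : Fˣ) : F) := by
        rw [Units.val_inv_eq_inv_val]
        intro h
        apply hsq
        have := h.inv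
        rwa [inv_inv] at this
      rw [map_mul, map_inv, spin_conj' hG.nd hG.rg h3 h4, parityHom_refl, hz2, mul_comm (spinHom _ _ _),
        mul_inv_cancel_right]
  rw [map_mul, map_mul, map_mul, map_inv, map_inv] at h1
  rw [← h1]
  group

/-- **R3**: `PGO/Inn` is dihedral of order eight. -/
theorem PG_mod_inn (hodd : Odd (Fintype.card F)) (hχ : ∃ l : LinS Q, chi (exists_q (Q := Q)) l = -1)
    (hn1 : parityHom hG.nd hG.rg (negO Q) = 1) (hn2 : spinHom hG.nd hG.rg (negO Q) = 1) :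
    ∃ φ : ↥(PG Q) →* DihedralGroup 4, Function.Surjective φ ∧ φ.ker = (Cfsg.Inn (T Q)).subgroupOf (PG Q) := by
  have hcard : Nat.card ↥((PG Q).map (QuotientGroup.mk' (Cfsg.Inn (T Q)))) = 8 := by
    rw [card_map_mk, ← Subgroup.relIndex_mul_relIndex _ (PS Q) (PG Q) inn_le_PS
      ((PS_le_PI hε).trans (PI_le hε)), relIndex_PS hodd hn1 hn2, relIndex_of_phi (PG_mod_PS hε hχ)]
    simp
  have hfin : Finite ↥((PG Q).map (QuotientGroup.mk' (Cfsg.Inn (T Q)))) :=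
    Nat.finite_of_card_ne_zero (by rw [hcard]; norm_num)
  obtain ⟨v, hv0, hv⟩ := exists_refl_c (Q := Q) 1
  obtain ⟨l, hl⟩ := hχ
  obtain ⟨z, hz1, hz2⟩ := exists_z (Q := Q) hodd
  have hmem : ∀ l, cL Q l ∈ PG Q := fun l => ⟨l, rfl⟩
  have hs : oL Q (ofL Q (refl Q v hv0)) * oL Q (ofL Q (refl Q v hv0)) = 1 := by
    rw [← map_mul, ← map_mul, refl_mul_self, map_one, map_one]
  have hz : oL Q (ofL Q z) * oL Q (ofL Q z) = 1 := by
    rw [← map_mul, ← map_mul]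
    exact oL_of (by rw [map_mul, hz1]; rfl) (by rw [map_mul, hz2]; rfl)
  have hzne : oL Q (ofL Q z) ≠ 1 := by
    intro h
    rw [oL_of_iff hn1 hn2, hz2] at h
    exact absurd h.2 (by decide)
  have hc := conj_refl hl hv0 hz1 hz2
  obtain ⟨c, A, hA⟩ := sq_eq l
  have hpA := eps_sq hε hA
  have hA' : oL Q l * oL Q l = oL Q (ofL Q A) := by rw [← map_mul, hA, map_mul, oL_scl, one_mul]
  have key : ∃ r : LinS Q, oL Q r ^ 4 = 1 ∧ oL Q r ^ 2 ≠ 1 ∧
      oL Q (ofL Q (refl Q v hv0)) * oL Q r * (oL Q (ofL Q (refl Q v hv0)))⁻¹ = (oL Q r)⁻¹ := by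
    rcases Int.units_eq_one_or (spinHom hG.nd hG.rg A) with h | h
    · rw [oL_of hpA h] at hA'
      obtain ⟨a1, a2, a3⟩ := OAut.abs_even hA' hs hz hc
      refine ⟨l * ofL Q (refl Q v hv0), ?_, ?_, ?_⟩
      · rw [map_mul]; exact a2
      · rw [map_mul, a1]; exact hzne
      · rw [map_mul]; exact a3
    · rw [oL_congr (g' := z) (hpA.trans hz1.symm) (h.trans hz2.symm)] at hA'
      obtain ⟨a1, a2, a3, a4⟩ := OAut.abs_odd hA' hz hc
      exact ⟨l, a2, by rw [a1]; exact hzne, a3⟩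
  obtain ⟨r, hr4, hr2, hsr⟩ := key
  obtain ⟨e⟩ := recog_D8' (r := cls (PG Q) r (hmem r)) (s := cls (PG Q) (ofL Q (refl Q v hv0)) (hmem _))
    (Subtype.ext hr4) (Subtype.ext hs) (Subtype.ext hsr) (fun h => hr2 (congrArg Subtype.val h)) hcard
  exact phi_of_equiv _ _ e

omit hε in
/-- `PGO/Inn` when `-1 ∉ Ω`. -/
theorem PG_mod_inn' (hε : IsEps ε) (hχ : ∃ l : LinS Q, chi (exists_q (Q := Q)) l = -1)
    (hn1 : parityHom hG.nd hG.rg (negO Q) = 1) (hn2 : spinHom hG.nd hG.rg (negO Q) = -1) :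
    ∃ φ : ↥(PG Q) →* Multiplicative (ZMod 2 × ZMod 2), Function.Surjective φ ∧
      φ.ker = (Cfsg.Inn (T Q)).subgroupOf (PG Q) := by
  rw [← PS_eq_inn hn1 hn2]
  exact PG_mod_PS hε hχ

/-- `Inndiag/Inn` when `-1 ∉ Ω`. -/
theorem PI_mod_inn_C2 (hχ : ∃ l : LinS Q, chi (exists_q (Q := Q)) l = -1)
    (hn1 : parityHom hG.nd hG.rg (negO Q) = 1) (hn2 : spinHom hG.nd hG.rg (negO Q) = -1) :
    ∃ φ : ↥(PI ε) →* Multiplicative (ZMod 2), Function.Surjective φ ∧
      φ.ker = (Cfsg.Inn (T Q)).subgroupOf (PI ε) := by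
  rw [← PS_eq_inn hn1 hn2]
  obtain ⟨φ, h1, h2⟩ := PI_mod_PS hε hχ
  obtain ⟨e⟩ := sgn_equiv
  refine ⟨e.toMonoidHom.comp φ, e.surjective.comp h1, ?_⟩
  rw [← h2]
  ext x
  rw [MonoidHom.mem_ker, MonoidHom.mem_ker]
  exact EmbeddingLike.map_eq_one_iff (f := e)

theorem card_PI (hodd : Odd (Fintype.card F)) (hχ : ∃ l : LinS Q, chi (exists_q (Q := Q)) l = -1)
    (hn1 : parityHom hG.nd hG.rg (negO Q) = 1) (hn2 : spinHom hG.nd hG.rg (negO Q) = 1) :
    Nat.card ↥((PI ε).map (QuotientGroup.mk' (Cfsg.Inn (T Q)))) = 4 := by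
  rw [card_map_mk, ← Subgroup.relIndex_mul_relIndex _ (PS Q) (PI ε) inn_le_PS
      (PS_le_PI hε), relIndex_PS hodd hn1 hn2, relIndex_of_phi (PI_mod_PS hε hχ), card_sgn]

/-- `Inndiag/Inn` cyclic of order four. -/
theorem PI_mod_inn_C4 (hodd : Odd (Fintype.card F))
    (hn1 : parityHom hG.nd hG.rg (negO Q) = 1) (hn2 : spinHom hG.nd hG.rg (negO Q) = 1)
    {δ : LinS Q} (hδ1 : chi (exists_q (Q := Q)) δ = -1) (hδ2 : ε δ = 1) {c : Fˣ} {A : OGrp Q}
    (hA : δ * δ = sclL Q c * ofL Q A) (hA2 : spinHom hG.nd hG.rg A = -1) :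
    ∃ φ : ↥(PI ε) →* Multiplicative (ZMod 4), Function.Surjective φ ∧
      φ.ker = (Cfsg.Inn (T Q)).subgroupOf (PI ε) := by
  have hcard := card_PI hε hodd ⟨δ, hδ1⟩ hn1 hn2
  have hfin : Finite ↥((PI ε).map (QuotientGroup.mk' (Cfsg.Inn (T Q)))) :=
    Nat.finite_of_card_ne_zero (by rw [hcard]; norm_num)
  obtain ⟨e⟩ := recog_C4 (r := cls (PI ε) δ ((mem_PI_iff hε δ).2 hδ2)) (fun h => by
    have h1 : oL Q δ ^ 2 = 1 := congrArg Subtype.val h
    rw [pow_two, ← map_mul, hA, map_mul, oL_scl, one_mul, oL_of_iff hn1 hn2, hA2] at h1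
    exact absurd h1.2 (by decide)) hcard
  exact phi_of_equiv _ _ e

/-- `Inndiag/Inn` elementary abelian of order four. -/
theorem PI_mod_inn_V4 (hodd : Odd (Fintype.card F))
    (hn1 : parityHom hG.nd hG.rg (negO Q) = 1) (hn2 : spinHom hG.nd hG.rg (negO Q) = 1)
    {δ : LinS Q} (hδ1 : chi (exists_q (Q := Q)) δ = -1) (hδ2 : ε δ = 1) {c : Fˣ} {A : OGrp Q}
    (hA : δ * δ = sclL Q c * ofL Q A) (hA2 : spinHom hG.nd hG.rg A = 1) :
    ∃ φ : ↥(PI ε) →* Multiplicative (ZMod 2 × ZMod 2), Function.Surjective φ ∧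
      φ.ker = (Cfsg.Inn (T Q)).subgroupOf (PI ε) := by
  have hcard := card_PI hε hodd ⟨δ, hδ1⟩ hn1 hn2
  have hfin : Finite ↥((PI ε).map (QuotientGroup.mk' (Cfsg.Inn (T Q)))) :=
    Nat.finite_of_card_ne_zero (by rw [hcard]; norm_num)
  have hpA := eps_sq hε hA
  obtain ⟨z, hz1, hz2⟩ := exists_z (Q := Q) hodd
  have hz : oL Q (ofL Q z) * oL Q (ofL Q z) = 1 := by
    rw [← map_mul, ← map_mul]
    exact oL_of (by rw [map_mul, hz1]; rfl) (by rw [map_mul, hz2]; rfl)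
  have hzne : oL Q (ofL Q z) ≠ 1 := by
    intro h
    rw [oL_of_iff hn1 hn2, hz2] at h
    exact absurd h.2 (by decide)
  have hδ : oL Q δ * oL Q δ = 1 := by
    rw [← map_mul, hA, map_mul, oL_scl, one_mul]
    exact oL_of hpA hA2
  have hsq : ¬ IsSquare ((mu (exists_q (Q := Q)) δ : Fˣ) : F) := by
    intro h
    rw [chi_apply, sqc, if_pos h] at hδ1
    exact absurd hδ1 (by decide)
  have hcomm : oL Q δ * oL Q (ofL Q z) = oL Q (ofL Q z) * oL Q δ := by
    rw [← mul_inv_eq_iff_eq_mul, ← map_inv, ← map_mul, ← map_mul, conj_ofL]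
    apply oL_congr
    · exact parity_conj _ _ _ _
    · rw [spin_conj' hG.nd hG.rg (mu_spec exists_q δ) hsq, hz1, mul_one]
  have hchi : ∀ l, oL Q l = 1 → chi (exists_q (Q := Q)) l = 1 := by
    intro l hl
    rw [oL_eq_one_iff', cL_mem_inn_iff] at hl
    obtain ⟨c, g, rfl⟩ := hl
    exact (chi_eq_one_iff _).2 ⟨c, _, rfl⟩
  obtain ⟨e⟩ := recog_V4' (a := cls (PI ε) δ ((mem_PI_iff hε δ).2 hδ2))
    (b := cls (PI ε) (ofL Q z) ((mem_PI_iff hε _).2 (by rw [hε.isom, hz1])))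
    (Subtype.ext hδ) (Subtype.ext hz) (Subtype.ext hcomm)
    (fun h => by
      have h1 := hchi δ (congrArg Subtype.val h)
      rw [hδ1] at h1
      exact absurd h1 (by decide))
    (fun h => hzne (congrArg Subtype.val h))
    (fun h => by
      have h1 := hchi (δ * ofL Q z) (by rw [map_mul]; exact congrArg Subtype.val h)
      rw [map_mul, hδ1, chi_ofL] at h1
      exact absurd h1 (by decide)) hcard
  exact phi_of_equiv _ _ e

end img

end Cfsg.Agent.SimO
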