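import Cfsg.Agent.Orth.PlusStd
import Cfsg.Agent.Orth.Homs
import Cfsg.Prelude.Def_LieTypeDatum

/-!
Parity classes of maximal totally singular subspaces under similarities; the predicate
`PreservesSingularClasses`.
-/

set_option autoImplicit false

namespace Cfsg.Agent.SimO

open QuadraticMap Module Cfsg.Agent.Orth

section gen

variable {F V : Type*} [Field F] [AddCommGroup V] [Module F V] [FiniteDimensional F V]
  {Q : QuadraticForm F V}

/-- `f` multiplies `Q` by `c`. -/
def IsSim (Q : QuadraticForm F V) (f : V ≃ₗ[F] V) (c : F) : Prop := ∀ v, Q (f v) = c * Q v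

omit [FiniteDimensional F V] in
theorem IsSim.map {f : V ≃ₗ[F] V} {c : F} (hf : IsSim Q f c) {U : Submodule F V} (hU : TS Q U) :
    TS Q (U.map (f : V →ₗ[F] V)) := by
  rintro _ ⟨x, hx, rfl⟩
  exact (hf x).trans (by rw [hU x hx, mul_zero])

omit [FiniteDimensional F V] in
theorem finrank_map_equiv (f : V ≃ₗ[F] V) (U : Submodule F V) :
    finrank F ↥(U.map (f : V →ₗ[F] V)) = finrank F U := LinearEquiv.finrank_map_eq f U

omit [FiniteDimensional F V] in
theorem finrank_inf_map (f : V ≃ₗ[F] V) (U W : Submodule F V) :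
    finrank F ↥(U.map (f : V →ₗ[F] V) ⊓ W.map (f : V →ₗ[F] V)) = finrank F ↥(U ⊓ W) := by
  rw [← Submodule.map_inf _ f.injective]
  exact LinearEquiv.finrank_map_eq f _

/-- The parity relation of two subspaces of dimension `m`. -/
def Par (m : ℕ) (U W : Submodule F V) : Prop := Even (m - finrank F ↥(U ⊓ W))

omit [FiniteDimensional F V] in
theorem Par.map_iff {m : ℕ} (f : V ≃ₗ[F] V) (U W : Submodule F V) :
    Par m (U.map (f : V →ₗ[F] V)) (W.map (f : V →ₗ[F] V)) ↔ Par m U W := by
  rw [Par, Par, finrank_inf_map]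

omit [FiniteDimensional F V] in
theorem par_comm {m : ℕ} (U W : Submodule F V) : Par m U W ↔ Par m W U := by
  rw [Par, Par, inf_comm]

section par

variable (hQ : (polarBilin Q).Nondegenerate) {m : ℕ} (hV : finrank F V = 2 * m)

include hQ hV

/-- The parity relation is an equivalence relation with two classes. -/
theorem par_trans {U W X : Submodule F V} (hU : TS Q U) (hUm : finrank F U = m)
    (hW : TS Q W) (hWm : finrank F W = m) (hX : TS Q X) (hXm : finrank F X = m) :
    (Par m U X ↔ (Par m U W ↔ Par m W X)) := by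
  have h := parity_triple hQ hV hU hUm _ W X hW hWm hX hXm rfl
  rw [Par, Par, Par]
  rw [Nat.even_add, Nat.even_add] at h
  tauto

/-- Independence of the subspace. -/
theorem par_indep {f : V ≃ₗ[F] V} {c : F} (hf : IsSim Q f c) {U W : Submodule F V} (hU : TS Q U)
    (hUm : finrank F U = m) (hW : TS Q W) (hWm : finrank F W = m) :
    Par m U (U.map (f : V →ₗ[F] V)) ↔ Par m W (W.map (f : V →ₗ[F] V)) := by
  have hfU := hf.map hU
  have hfW := hf.map hW
  have e1 : finrank F ↥(U.map (f : V →ₗ[F] V)) = m := (finrank_map_equiv f U).trans hUm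
  have e2 : finrank F ↥(W.map (f : V →ₗ[F] V)) = m := (finrank_map_equiv f W).trans hWm
  have h1 := par_trans hQ hV hU hUm hfU e1 hfW e2
  have h2 := par_trans hQ hV hU hUm hW hWm hfW e2
  have h3 := Par.map_iff (m := m) f U W
  tauto

/-- Multiplicativity. -/
theorem par_mul {f g : V ≃ₗ[F] V} {c d : F} (hf : IsSim Q f c) (hg : IsSim Q g d) {U : Submodule F V}
    (hU : TS Q U) (hUm : finrank F U = m) :
    Par m U (U.map ((f * g : V ≃ₗ[F] V) : V →ₗ[F] V)) ↔
      (Par m U (U.map (f : V →ₗ[F] V)) ↔ Par m U (U.map (g : V →ₗ[F] V))) := by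
  have hgU := hg.map hU
  have hfgU := hf.map hgU
  have e0 : finrank F ↥(U.map (f : V →ₗ[F] V)) = m := (finrank_map_equiv f U).trans hUm
  have e1 : finrank F ↥(U.map (g : V →ₗ[F] V)) = m := (finrank_map_equiv g U).trans hUm
  have e2 : finrank F ↥((U.map (g : V →ₗ[F] V)).map (f : V →ₗ[F] V)) = m :=
    (finrank_map_equiv f _).trans e1
  have e3 : U.map ((f * g : V ≃ₗ[F] V) : V →ₗ[F] V) = (U.map (g : V →ₗ[F] V)).map (f : V →ₗ[F] V) := by
    rw [← Submodule.map_comp]; rfl
  rw [e3]
  have h1 := par_trans hQ hV hU hUm (hf.map hU) e0 hfgU e2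
  have h3 := Par.map_iff (m := m) f U (U.map (g : V →ₗ[F] V))
  tauto

/-- Isometries: the parity class is the parity of the number of reflections. -/
theorem par_isom (hR : RGrp Q = ⊤) {U : Submodule F V} (hU : TS Q U) (hUm : finrank F U = m)
    (g : OGrp Q) : Par m U (U.map ((g : V ≃ₗ[F] V) : V →ₗ[F] V)) ↔ parityHom hQ hR g = 1 := by
  obtain ⟨l, rfl⟩ : ∃ l, g = reflProd Q l := ⟨_, (exists_reflProd hR g).choose_spec.symm⟩
  rw [Par, parity_TS hQ hV hU hUm l, parityHom_reflProd]
  rcases Nat.even_or_odd l.length with h | h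
  · rw [h.neg_one_pow]; exact ⟨fun _ => rfl, fun _ => h⟩
  · rw [h.neg_one_pow]
    exact ⟨fun h' => absurd h' (Nat.not_even_iff_odd.2 h), fun h' => absurd h' (by decide)⟩

/-- Maximal totally singular subspaces have half dimension. -/
theorem finrank_max {W : Submodule F V} (hW : TS Q W) (hWm : finrank F W = m) {U : Submodule F V}
    (hU : TS Q U) (hmax : ∀ X : Submodule F V, TS Q X → U ≤ X → X = U) : finrank F U = m := by
  have h1 : TS Q (U ⊔ (W ⊓ perp Q U)) := by
    intro x hx
    obtain ⟨u, hu, w, hw, rfl⟩ := Submodule.mem_sup.1 hx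
    have h2 : QuadraticMap.polar Q u w = 0 := hw.2 u hu
    rw [qadd, hU u hu, hW w hw.1, h2]; ring
  have h2 := hmax _ h1 le_sup_left
  have h3 : W ⊓ perp Q U ≤ U := by
    calc W ⊓ perp Q U ≤ U ⊔ (W ⊓ perp Q U) := le_sup_right
      _ = U := h2
  have h4 := finrank_inf_perp hQ W U
  rw [hW.perp_eq hQ hV hWm] at h4
  have h5 : finrank F ↥(W ⊓ perp Q U) ≤ finrank F ↥(W ⊓ U) :=
    Submodule.finrank_mono (le_inf inf_le_left h3)
  have h6 := Submodule.finrank_mono hU.le_perp
  have h7 := finrank_perp hQ U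
  omega

omit hQ hV in
/-- Subspaces of half dimension are maximal. -/
theorem max_of_finrank (hQ : (polarBilin Q).Nondegenerate) (hV : finrank F V = 2 * m)
    {U : Submodule F V} (hU : TS Q U) (hUm : finrank F U = m)
    {X : Submodule F V} (hX : TS Q X) (h : U ≤ X) : X = U := by
  have h1 : X ≤ perp Q U := by
    intro x hx u hu
    exact hX.polar (h hu) hx
  rw [hU.perp_eq hQ hV hUm] at h1
  exact le_antisymm h1 h

end par

end gen

section mat

variable {F : Type*} [Field F] {ι : Type} [Fintype ι] [DecidableEq ι] {Q : QuadraticForm F (ι → F)}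

/-- Two notions of totally singular. -/
theorem ts_iff (U : Submodule F (ι → F)) : Cfsg.Geo.IsTotallySingularQuad (⇑Q) U ↔ TS Q U := Iff.rfl

open Matrix in
/-- The predicate `PreservesSingularClasses`. -/
theorem psc_iff (hQ : (polarBilin Q).Nondegenerate) {m : ℕ} (hV : finrank F (ι → F) = 2 * m)
    {U : Submodule F (ι → F)} (hU : TS Q U) (hUm : finrank F U = m) {g : Matrix ι ι F}
    {f : (ι → F) ≃ₗ[F] (ι → F)} (hfg : ∀ v, f v = g *ᵥ v) {c : F} (hf : IsSim Q f c) :
    Cfsg.PreservesSingularClasses (⇑Q) g ↔ Par m U (U.map (f : (ι → F) →ₗ[F] (ι → F))) := by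
  have hg : Matrix.toLin' g = (f : (ι → F) →ₗ[F] (ι → F)) := by
    apply LinearMap.ext
    intro v
    rw [Matrix.toLin'_apply, ← hfg]; rfl
  constructor
  · intro h
    have h1 := h U ⟨hU, fun X hX hUX => max_of_finrank hQ hV hU hUm hX hUX⟩
    rw [Cfsg.SameParityClass, Cfsg.imageSubmodule, hg, hUm] at h1
    exact h1
  · intro h W hW
    have hWT : TS Q W := hW.1
    have hWm := finrank_max hQ hV hU hUm hWT (fun X hX hWX => hW.2 X hX hWX)
    rw [Cfsg.SameParityClass, Cfsg.imageSubmodule, hg, hWm]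
    exact (par_indep hQ hV hf hU hUm hWT hWm).1 h

end mat

end Cfsg.Agent.SimO
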