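import Cfsg.Agent.SimO.Grp2
import Cfsg.Agent.SimO.Par

/-!
The subgroups `pgoAut`, `psoAut`, `poAut`, `inndiagPOmegaPlus` of the automorphism group of `PΩ`.
-/

set_option autoImplicit false

namespace Cfsg.Agent.SimO

open QuadraticMap Module Cfsg.Agent.ClassO Cfsg.Agent.AutO
open Cfsg.Agent.Orth hiding two_ne_zero_of_odd map_mul

section gen
variable {F V : Type*} [Field F] [AddCommGroup V] [Module F V]

/-- similarities as linear equivalences -/
def SimE (Q : QuadraticForm F V) : Subgroup (V ≃ₗ[F] V) where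
  carrier := {f | ∃ c : Fˣ, IsSim Q f c}
  one_mem' := ⟨1, fun v => by rw [Units.val_one, one_mul]; rfl⟩
  mul_mem' := by
    rintro f g ⟨c, hf⟩ ⟨d, hg⟩
    refine ⟨c * d, fun v => ?_⟩
    change Q (f (g v)) = _
    rw [hf, hg, Units.val_mul, mul_assoc]
  inv_mem' := by
    rintro f ⟨c, hf⟩
    refine ⟨c⁻¹, fun v => ?_⟩
    have h := hf ((f⁻¹ : V ≃ₗ[F] V) v)
    have h1 : f ((f⁻¹ : V ≃ₗ[F] V) v) = v := f.apply_symm_apply v
    rw [h1] at h
    rw [h, ← mul_assoc, Units.inv_mul, one_mul]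

/-- linear similarities as linear equivalences -/
def linE (Q : QuadraticForm F V) : LinS Q →* SimE Q where
  toFun l := ⟨{ toFun := fun v => ((l : GamO Q) : Equiv.Perm V) v
                invFun := fun v => (((l : GamO Q)⁻¹ : GamO Q) : Equiv.Perm V) v
                map_add' := fun x y => by
                  obtain ⟨c, hc⟩ := l.2
                  exact hc.add x y
                map_smul' := fun a x => by
                  obtain ⟨c, hc⟩ := l.2
                  exact hc.smul a x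
                left_inv := fun x => gam_inv_apply (l : GamO Q) x
                right_inv := fun x => gam_apply_inv (l : GamO Q) x }, by
              obtain ⟨c, hc⟩ := l.2
              exact ⟨c, fun v => hc.q v⟩⟩
  map_one' := rfl
  map_mul' l l' := rfl

theorem linE_apply {Q : QuadraticForm F V} (l : LinS Q) (v : V) :
    ((linE Q l : SimE Q) : V ≃ₗ[F] V) v = ((l : GamO Q) : Equiv.Perm V) v := rfl

variable [FiniteDimensional F V] {Q : QuadraticForm F V}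

open Classical in
/-- the parity character -/
noncomputable def epsU (hQ : (polarBilin Q).Nondegenerate) {m : ℕ} (hV : finrank F V = 2 * m)
    {U : Submodule F V} (hU : TS Q U) (hUm : finrank F U = m) : SimE Q →* ℤˣ where
  toFun f := if Par m U (U.map ((f : V ≃ₗ[F] V) : V →ₗ[F] V)) then 1 else -1
  map_one' := by
    have h : U.map (((1 : SimE Q) : V ≃ₗ[F] V) : V →ₗ[F] V) = U := Submodule.map_id U
    rw [h, if_pos]
    rw [Par, inf_idem, hUm, Nat.sub_self]; exact Even.zero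
  map_mul' f g := by
    obtain ⟨c, hf⟩ := f.2
    obtain ⟨d, hg⟩ := g.2
    have h := par_mul hQ hV hf hg hU hUm
    by_cases h1 : Par m U (U.map ((f : V ≃ₗ[F] V) : V →ₗ[F] V)) <;>
    by_cases h2 : Par m U (U.map ((g : V ≃ₗ[F] V) : V →ₗ[F] V))
    · have h3 : Par m U (U.map (((f * g : SimE Q) : V ≃ₗ[F] V) : V →ₗ[F] V)) := h.2 (iff_of_true h1 h2)
      rw [if_pos h1, if_pos h2, if_pos h3]; rfl
    · have h3 : ¬ Par m U (U.map (((f * g : SimE Q) : V ≃ₗ[F] V) : V →ₗ[F] V)) :=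
        fun h' => h2 ((h.1 h').1 h1)
      rw [if_pos h1, if_neg h2, if_neg h3]; rfl
    · have h3 : ¬ Par m U (U.map (((f * g : SimE Q) : V ≃ₗ[F] V) : V →ₗ[F] V)) :=
        fun h' => h1 ((h.1 h').2 h2)
      rw [if_neg h1, if_pos h2, if_neg h3]; rfl
    · have h3 : Par m U (U.map (((f * g : SimE Q) : V ≃ₗ[F] V) : V →ₗ[F] V)) := h.2 (iff_of_false h1 h2)
      rw [if_neg h1, if_neg h2, if_pos h3]; rfl

section eps
variable (hQ : (polarBilin Q).Nondegenerate) {m : ℕ} (hV : finrank F V = 2 * m)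
    {U : Submodule F V} (hU : TS Q U) (hUm : finrank F U = m)

theorem epsU_eq_one_iff (f : SimE Q) : epsU hQ hV hU hUm f = 1 ↔ Par m U (U.map ((f : V ≃ₗ[F] V) : V →ₗ[F] V)) := by
  by_cases h : Par m U (U.map ((f : V ≃ₗ[F] V) : V →ₗ[F] V))
  · exact iff_of_true (if_pos h) h
  · refine iff_of_false (fun h' => ?_) h
    have h1 : epsU hQ hV hU hUm f = -1 := if_neg h
    rw [h1] at h'
    exact absurd h' (by decide)

theorem epsU_of_stable (f : SimE Q) (h : U.map ((f : V ≃ₗ[F] V) : V →ₗ[F] V) ≤ U) : epsU hQ hV hU hUm f = 1 := by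
  rw [epsU_eq_one_iff]
  have h1 : U.map ((f : V ≃ₗ[F] V) : V →ₗ[F] V) = U :=
    Submodule.eq_of_le_of_finrank_le h (by rw [finrank_map_equiv])
  rw [h1, Par, inf_idem, hUm, Nat.sub_self]; exact Even.zero

theorem epsU_reflProd (l : List {v : V // Q v ≠ 0}) (f : SimE Q)
    (h : ∀ v, (f : V ≃ₗ[F] V) v = (reflProd Q l : V ≃ₗ[F] V) v) : epsU hQ hV hU hUm f = (-1) ^ l.length := by
  have h0 : (f : V ≃ₗ[F] V) = (reflProd Q l : V ≃ₗ[F] V) := LinearEquiv.ext h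
  rcases Nat.even_or_odd l.length with h1 | h1
  · rw [h1.neg_one_pow, epsU_eq_one_iff, h0]
    exact (parity_TS hQ hV hU hUm l).2 h1
  · rw [h1.neg_one_pow]
    apply units_int_ne_one
    rw [Ne, epsU_eq_one_iff, h0]
    exact fun h2 => Nat.not_even_iff_odd.2 h1 ((parity_TS hQ hV hU hUm l).1 h2)

end eps

end gen

section plus

variable {F : Type*} [Field F] [Fintype F] {m : ℕ}

/-- the parity character for the hyperbolic form -/
noncomputable def epsP (m : ℕ) (F : Type*) [Field F] : LinS (qfPlus m F) →* ℤˣ :=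
  (epsU (qfPlus_nondegenerate m F) (finrank_V m F) (TS_U0 m F) (finrank_U0 m F)).comp (linE (qfPlus m F))

theorem isEps_plus [hG : AutO.Good (qfPlus m F)] : IsEps (epsP m F) where
  isom g := by
    obtain ⟨l, rfl⟩ : ∃ l, g = reflProd (qfPlus m F) l := ⟨_, (exists_reflProd hG.rg g).choose_spec.symm⟩
    rw [parityHom_reflProd]
    exact epsU_reflProd (qfPlus_nondegenerate m F) (finrank_V m F) (TS_U0 m F) (finrank_U0 m F) l _ fun v => rfl
  scl c := by
    refine epsU_of_stable (qfPlus_nondegenerate m F) (finrank_V m F) (TS_U0 m F) (finrank_U0 m F) _ ?_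
    rintro _ ⟨x, hx, rfl⟩
    exact (U0 m F).smul_mem (c : F) hx

end plus

section mat

variable {F : Type*} [Field F] {ι : Type} [Fintype ι] [DecidableEq ι] {Q : QuadraticForm F (ι → F)}

theorem mem_autSub {X B : Type*} [Group X] [Group B] {P : (X ≃* X) → Prop} (e : MulAut X ≃* B) (H : Subgroup B)
    (h : ∀ β, P β ↔ e β ∈ H) (β : MulAut X) : β ∈ Cfsg.autSubgroupOf P ↔ e β ∈ H := by
  have h1 : {β : MulAut X | P β} = (H.comap e.toMonoidHom : Set (MulAut X)) := by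
    ext β
    exact h β
  rw [Cfsg.autSubgroupOf, h1, Subgroup.closure_eq]
  rfl

open Matrix in
theorem lin_of {g : GL ι F} (hg : g ∈ Cfsg.Geo.quadSimilarityGroup (F := F) (⇑Q)) :
    ∃ l : LinS Q, ∀ v, ((l : GamO Q) : Equiv.Perm (ι → F)) v = (g : Matrix ι ι F) *ᵥ v := by
  obtain ⟨c, hc⟩ := hg
  have h : Cfsg.IsSemisimilarityPair (⇑Q) g (1 : RingAut F) := ⟨c, hc⟩
  obtain ⟨f, hf⟩ := exists_gam g 1 h
  refine ⟨⟨f, c, ?_, ?_, ?_⟩, hf⟩
  · intro x y; rw [hf, hf, hf]; exact Matrix.mulVec_add _ _ _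
  · intro a x; rw [hf, hf]; exact Matrix.mulVec_smul (g : Matrix ι ι F) a x
  · intro v; rw [hf]; exact hc v

open Matrix in
theorem pair_of (l : LinS Q) : ∃ g : GL ι F, g ∈ Cfsg.Geo.quadSimilarityGroup (F := F) (⇑Q) ∧
    ∀ v, ((l : GamO Q) : Equiv.Perm (ι → F)) v = (g : Matrix ι ι F) *ᵥ v := by
  have h : ∀ v, ((l : GamO Q) : Equiv.Perm (ι → F)) v =
      (((glE ι F).symm ((linE Q l : SimE Q) : (ι → F) ≃ₗ[F] (ι → F)) : GL ι F) : Matrix ι ι F) *ᵥ v := by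
    intro v
    rw [← glE_apply, MulEquiv.apply_symm_apply]; rfl
  refine ⟨_, ?_, h⟩
  obtain ⟨c, hc⟩ := l.2
  refine ⟨c, fun v => ?_⟩
  rw [← h]
  exact hc.q v

open Matrix in
theorem induced_iff' (l : LinS Q) (g : GL ι F)
    (hf : ∀ v, ((l : GamO Q) : Equiv.Perm (ι → F)) v = (g : Matrix ι ι F) *ᵥ v)
    (β : MulAut (Cfsg.POmega F ⇑Q)) :
    Cfsg.IsInducedBySemilinearPOmega (⇑Q) g (RingEquiv.refl F) β ↔ MulAut.congr (pomE Q) β = cL Q l :=
  induced_iff (l : GamO Q) g (1 : RingAut F) hf β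

/-- transport of a property of the matrix -/
theorem induced_P {P : GL ι F → Prop} {R : LinS Q → Prop}
    (hPR : ∀ (l : LinS Q) (g : GL ι F), (∀ v, ((l : GamO Q) : Equiv.Perm (ι → F)) v = (g : Matrix ι ι F).mulVec v) →
      (P g ↔ R l)) (β : MulAut (Cfsg.POmega F ⇑Q)) :
    (∃ g : GL ι F, g ∈ Cfsg.Geo.quadSimilarityGroup (F := F) (⇑Q) ∧ P g ∧
      Cfsg.IsInducedBySemilinearPOmega (⇑Q) g (RingEquiv.refl F) β) ↔
    ∃ l : LinS Q, R l ∧ cL Q l = MulAut.congr (pomE Q) β := by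
  constructor
  · rintro ⟨g, hg, hP, hβ⟩
    obtain ⟨l, hl⟩ := lin_of hg
    exact ⟨l, (hPR l g hl).1 hP, ((induced_iff' l g hl β).1 hβ).symm⟩
  · rintro ⟨l, hR, hβ⟩
    obtain ⟨g, hg, hl⟩ := pair_of l
    exact ⟨g, hg, (hPR l g hl).2 hR, (induced_iff' l g hl β).2 hβ.symm⟩

theorem mem_pgo (β : MulAut (Cfsg.POmega F ⇑Q)) :
    β ∈ Cfsg.pgoAut F ⇑Q ↔ MulAut.congr (pomE Q) β ∈ (cL Q).range := by
  refine mem_autSub (MulAut.congr (pomE Q)) (cL Q).range (fun β => ?_) β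
  have h := induced_P (Q := Q) (P := fun _ => True) (R := fun _ => True) (fun _ _ _ => Iff.rfl) β
  simp only [true_and] at h
  exact h

theorem isom_iff (l : LinS Q) (g : GL ι F)
    (hl : ∀ v, ((l : GamO Q) : Equiv.Perm (ι → F)) v = (g : Matrix ι ι F).mulVec v) :
    g ∈ Cfsg.isometryGroup F ⇑Q ↔ ∃ k : OGrp Q, l = ofL Q k := by
  constructor
  · intro hg
    refine ⟨bridge Q ⟨g, hg⟩, Subtype.ext (gam_ext fun v => ?_)⟩
    rw [hl]
    exact (bridge_apply Q ⟨g, hg⟩ v).symm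
  · rintro ⟨k, rfl⟩
    have h : g = ((bridge Q).symm k : GL ι F) := by
      apply Units.ext
      apply matrix_eq_of_mulVec
      intro v
      rw [bridge_symm_mulVec, ← hl]; rfl
    rw [h]
    exact ((bridge Q).symm k).2

theorem isom_iff' (g : GL ι F) : g ∈ Cfsg.isometryGroup F ⇑Q ↔ ∀ v, Q ((g : Matrix ι ι F).mulVec v) = Q v := by
  constructor
  · intro hg v
    have h := OGrp_q (bridge Q ⟨g, hg⟩) v
    rwa [bridge_apply] at h
  · intro h
    have hg : g ∈ Cfsg.Geo.quadSimilarityGroup (F := F) (⇑Q) := ⟨1, fun v => by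
      rw [Units.val_one, one_mul]; exact h v⟩
    obtain ⟨l, hl⟩ := lin_of hg
    obtain ⟨c, hc⟩ := l.2
    have h1 : IsSemi Q ((l : GamO Q) : Equiv.Perm (ι → F)) 1 1 := by
      refine ⟨hc.add, hc.smul, fun v => ?_⟩
      rw [hl, Units.val_one, one_mul]; exact h v
    obtain ⟨k, hk⟩ := exists_ofO h1
    exact (isom_iff l g hl).2 ⟨k, Subtype.ext hk⟩

theorem mem_sim_of_isom {g : GL ι F} (hg : g ∈ Cfsg.isometryGroup F ⇑Q) :
    g ∈ Cfsg.Geo.quadSimilarityGroup (F := F) (⇑Q) := ⟨1, fun v => by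
  rw [Units.val_one, one_mul]
  have h := (isom_iff' g).1 hg v
  exact h⟩

theorem mem_po (β : MulAut (Cfsg.POmega F ⇑Q)) :
    β ∈ Cfsg.poAut F ⇑Q ↔ MulAut.congr (pomE Q) β ∈ ((cL Q).comp (ofL Q)).range := by
  refine mem_autSub (MulAut.congr (pomE Q)) _ (fun β => ?_) β
  have h := induced_P (Q := Q) (P := fun g => g ∈ Cfsg.isometryGroup F ⇑Q) (R := fun l => ∃ k : OGrp Q, l = ofL Q k)
    isom_iff β
  constructor
  · rintro ⟨g, hg, hβ⟩
    obtain ⟨l, ⟨k, rfl⟩, hk⟩ := h.1 ⟨g, mem_sim_of_isom hg, hg, hβ⟩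
    exact ⟨k, hk⟩
  · rintro ⟨k, hk⟩
    obtain ⟨g, _, hg, hβ⟩ := h.2 ⟨ofL Q k, ⟨k, rfl⟩, hk⟩
    exact ⟨g, hg, hβ⟩

theorem inn_transport {G H : Type*} [Group G] [Group H] (e : G ≃* H) (β : MulAut G) :
    β ∈ Cfsg.Inn G ↔ MulAut.congr e β ∈ Cfsg.Inn H := by
  constructor
  · rintro ⟨x, rfl⟩
    refine ⟨e x, ?_⟩
    apply MulEquiv.ext
    intro y
    change e x * y * (e x)⁻¹ = e (x * e.symm y * x⁻¹)
    rw [map_mul, map_mul, map_inv, MulEquiv.apply_symm_apply]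
  · rintro ⟨y, hy⟩
    refine ⟨e.symm y, ?_⟩
    apply (MulAut.congr e).injective
    rw [← hy]
    apply MulEquiv.ext
    intro x
    change e (e.symm y * e.symm x * (e.symm y)⁻¹) = y * x * y⁻¹
    rw [map_mul, map_mul, map_inv, MulEquiv.apply_symm_apply, MulEquiv.apply_symm_apply]

theorem mem_inn (β : MulAut (Cfsg.POmega F ⇑Q)) :
    β ∈ Cfsg.Inn (Cfsg.POmega F ⇑Q) ↔ MulAut.congr (pomE Q) β ∈ Cfsg.Inn (T Q) :=
  inn_transport (pomE Q) β

section fin
variable [Fintype F] [hG : AutO.Good Q]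

theorem det_iff (h2 : (2 : F) ≠ 0) (k : OGrp Q) (g : GL ι F)
    (hl : ∀ v, (k : (ι → F) ≃ₗ[F] (ι → F)) v = (g : Matrix ι ι F).mulVec v) :
    g ∈ Cfsg.Geo.specialLinear ι F ↔ parityHom hG.nd hG.rg k = 1 := by
  have h1 := det_parity hG.nd hG.rg k
  have h3 : ((k : (ι → F) ≃ₗ[F] (ι → F)) : (ι → F) →ₗ[F] (ι → F)) = Matrix.toLin' (g : Matrix ι ι F) := by
    apply LinearMap.ext
    intro v
    rw [Matrix.toLin'_apply]; exact hl v
  rw [h3, LinearMap.det_toLin'] at h1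
  have h4 : g ∈ Cfsg.Geo.specialLinear ι F ↔ (g : Matrix ι ι F).det = 1 := by
    rw [Cfsg.Geo.specialLinear, MonoidHom.mem_ker]
    constructor
    · intro h; exact congrArg Units.val h
    · intro h; exact Units.ext h
  rw [h4, h1]
  rcases Int.units_eq_one_or (parityHom hG.nd hG.rg k) with h | h
  · rw [h]; simp
  · rw [h]
    refine iff_of_false ?_ (by decide)
    intro h5
    apply h2
    simp at h5
    linear_combination -h5

theorem mem_pso (h2 : (2 : F) ≠ 0) (β : MulAut (Cfsg.POmega F ⇑Q)) :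
    β ∈ Cfsg.psoAut F ⇑Q ↔ MulAut.congr (pomE Q) β ∈ PS Q := by
  refine mem_autSub (MulAut.congr (pomE Q)) _ (fun β => ?_) β
  have hR : ∀ (l : LinS Q) (g : GL ι F), (∀ v, ((l : GamO Q) : Equiv.Perm (ι → F)) v = (g : Matrix ι ι F).mulVec v) →
      (g ∈ Cfsg.specialIsometryGL F ⇑Q ↔ ∃ k : OGrp Q, parityHom hG.nd hG.rg k = 1 ∧ l = ofL Q k) := by
    intro l g hl
    constructor
    · rintro ⟨h1, h3⟩
      obtain ⟨k, rfl⟩ := (isom_iff l g hl).1 h1
      exact ⟨k, (det_iff h2 k g hl).1 h3, rfl⟩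
    · rintro ⟨k, hk, rfl⟩
      exact ⟨(isom_iff _ g hl).2 ⟨k, rfl⟩, (det_iff h2 k g hl).2 hk⟩
  have h := induced_P (Q := Q) hR β
  constructor
  · rintro ⟨g, hg, hβ⟩
    obtain ⟨l, ⟨k, hk, rfl⟩, hk'⟩ := h.1 ⟨g, mem_sim_of_isom hg.1, hg, hβ⟩
    exact ⟨k, hk, hk'⟩
  · rintro ⟨k, hk, hk'⟩
    obtain ⟨g, _, hg, hβ⟩ := h.2 ⟨ofL Q k, ⟨k, hk, rfl⟩, hk'⟩
    exact ⟨g, hg, hβ⟩

end fin

end mat

section plus2

variable {F : Type*} [Field F] {m : ℕ}

theorem psc_plus (l : LinS (qfPlus m F)) (g : GL (Fin m ⊕ Fin m) F)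
    (hl : ∀ v, ((l : GamO (qfPlus m F)) : Equiv.Perm (Fin m ⊕ Fin m → F)) v =
      (g : Matrix (Fin m ⊕ Fin m) (Fin m ⊕ Fin m) F).mulVec v) :
    Cfsg.PreservesSingularClasses (⇑(qfPlus m F)) (g : Matrix (Fin m ⊕ Fin m) (Fin m ⊕ Fin m) F) ↔ epsP m F l = 1 := by
  obtain ⟨c, hc⟩ := (linE (qfPlus m F) l).2
  rw [psc_iff (qfPlus_nondegenerate m F) (finrank_V m F) (TS_U0 m F) (finrank_U0 m F)
    (f := ((linE (qfPlus m F) l : SimE (qfPlus m F)) : (Fin m ⊕ Fin m → F) ≃ₗ[F] (Fin m ⊕ Fin m → F))) hl hc]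
  exact (epsU_eq_one_iff (qfPlus_nondegenerate m F) (finrank_V m F) (TS_U0 m F) (finrank_U0 m F) _).symm

theorem mem_inndiag_plus (β : MulAut (Cfsg.POmega F ⇑(qfPlus m F))) :
    β ∈ Cfsg.inndiagPOmegaPlus m F ↔ MulAut.congr (pomE (qfPlus m F)) β ∈ (epsP m F).ker.map (cL (qfPlus m F)) := by
  refine mem_autSub (MulAut.congr (pomE (qfPlus m F))) _ (fun β => ?_) β
  exact induced_P (Q := qfPlus m F) psc_plus β

/-- graph automorphisms induced by similarities -/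
theorem isGraph_iff (β : MulAut (Cfsg.POmega F ⇑(qfPlus m F))) :
    Cfsg.IsSimilarityGraphAutPOmegaPlus m β ↔
      ∃ l : LinS (qfPlus m F), epsP m F l ≠ 1 ∧ cL _ l = MulAut.congr (pomE (qfPlus m F)) β :=
  induced_P (Q := qfPlus m F) (fun l g hl => not_congr (psc_plus l g hl)) β

end plus2

end Cfsg.Agent.SimO
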