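import Cfsg.Agent.SimO.Img
import Cfsg.Agent.AutLie.Split

/-!
Counting `T`-classes in `Inndiag`-classes of involutory graph automorphisms: group theoretic part.
-/

set_option autoImplicit false

namespace Cfsg.Agent.SimO

open QuadraticMap Module Cfsg.Agent.ClassO Cfsg.Agent.AutO
open Cfsg.Agent.Orth hiding two_ne_zero_of_odd map_mul

/-- The number of `K`-classes in an `H`-class. -/
theorem splitClassCount_eq_relIndex {X : Type*} [Group X] (H K : Subgroup X) [hK : K.Normal] (hKH : K ≤ H) (x : X) :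
    Cfsg.splitClassCount H K x = (K ⊔ (H ⊓ Subgroup.centralizer {x})).relIndex H := by
  classical
  unfold Cfsg.splitClassCount
  let f : H → Quot fun y z : {y : X // Cfsg.IsConjUnder H x y} => Cfsg.IsConjUnder K y.1 z.1 :=
    fun h => Quot.mk _ ⟨h * x * (h : X)⁻¹, h, h.2, rfl⟩
  let q : H → H ⧸ (K ⊔ (H ⊓ Subgroup.centralizer {x})).subgroupOf H := fun h => QuotientGroup.mk h
  refine AutLie.card_eq_of_surj f q ?_ ?_ ?_
  · intro y
    induction y using Quot.ind with
    | mk y =>
      obtain ⟨y, k, hk, hk'⟩ := y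
      subst hk'
      exact ⟨⟨k, hk⟩, rfl⟩
  · exact QuotientGroup.mk_surjective
  · intro g h
    have heqv : Equivalence fun y z : {y : X // Cfsg.IsConjUnder H x y} => Cfsg.IsConjUnder K y.1 z.1 :=
      ⟨fun y => AutLie.isConjUnder_refl _ _, fun h => AutLie.isConjUnder_symm h, fun h h' => AutLie.isConjUnder_trans h h'⟩
    have h1 : f g = f h ↔ Cfsg.IsConjUnder K ((g : X) * x * (g : X)⁻¹) ((h : X) * x * (h : X)⁻¹) := by
      change Quot.mk _ _ = Quot.mk _ _ ↔ _
      rw [Quot.eq, heqv.eqvGen_iff]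
    have h2 : q g = q h ↔ (g : X)⁻¹ * h ∈ K ⊔ (H ⊓ Subgroup.centralizer {x}) := by
      rw [show q g = q h ↔ g⁻¹ * h ∈ (K ⊔ (H ⊓ Subgroup.centralizer {x})).subgroupOf H from QuotientGroup.eq,
        Subgroup.mem_subgroupOf]
      rfl
    rw [h1, h2]
    constructor
    · rintro ⟨k, hk, hkk⟩
      -- c = g⁻¹ k⁻¹ h centralises x
      have hc : (g : X)⁻¹ * k⁻¹ * h ∈ Subgroup.centralizer {x} := by
        rw [Subgroup.mem_centralizer_singleton_iff]
        have h4 : (h : X) * x * (h : X)⁻¹ * (k * g) = k * g * x := by rw [hkk]; group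
        have h5 : (g : X)⁻¹ * k⁻¹ * (h * x) = x * ((g : X)⁻¹ * k⁻¹ * h) := by
          have h6 : (h : X) * x = (k * g * x) * (k * g)⁻¹ * h := by rw [← h4]; group
          rw [h6]; group
        rw [← h5]; group
      have hH : (g : X)⁻¹ * k⁻¹ * h ∈ H := H.mul_mem (H.mul_mem (H.inv_mem g.2) (H.inv_mem (hKH hk))) h.2
      have h7 : (g : X)⁻¹ * h = ((g : X)⁻¹ * k * g) * ((g : X)⁻¹ * k⁻¹ * h) := by group
      rw [h7]
      refine Subgroup.mul_mem_sup ?_ ⟨hH, hc⟩
      have := hK.conj_mem k hk (g : X)⁻¹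
      rwa [inv_inv] at this
    · intro hm
      rw [sup_comm] at hm
      obtain ⟨c, hc, k, hk, hck⟩ := Subgroup.mem_sup_of_normal_right.1 hm
      have hc' := Subgroup.mem_centralizer_singleton_iff.1 hc.2
      refine ⟨(g * c) * k * ((g : X) * c)⁻¹, hK.conj_mem _ hk _, ?_⟩
      have h8 : (h : X) = g * (c * k) := by rw [hck]; group
      have h9 : x = c * x * c⁻¹ := by rw [hc']; group
      have h10 : (g : X) * x * (g : X)⁻¹ = (g * c) * x * ((g : X) * c)⁻¹ := by
        conv_lhs => rw [h9]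
        group
      rw [h10, h8]
      group

/-- an intermediate group between `K` and `H` of prime index -/
theorem relIndex_two_cases {X : Type*} [Group X] {K M H : Subgroup X} (h1 : K ≤ M) (h2 : M ≤ H)
    (h : K.relIndex H = 2) : M.relIndex H = 1 ∨ M.relIndex H = 2 := by
  have h3 := Subgroup.relIndex_mul_relIndex K M H h1 h2
  rw [h] at h3
  have h4 : M.relIndex H ∣ 2 := ⟨_, by rw [mul_comm]; exact h3.symm⟩
  exact (Nat.dvd_prime Nat.prime_two).1 h4

end Cfsg.Agent.SimO
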